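import Mathlib
import Cfsg.Prelude.Def_Blocks
import Cfsg.Agent.Char.DefectZero
import Cfsg.Agent.H79.Basic
import Cfsg.Agent.H79.ModJ

/-!
# The restriction of a character of degree `p` to a Frobenius complement of the Sylow normalizer
-/

set_option autoImplicit false
set_option linter.style.haveILetI false

open Module Subgroup

namespace Cfsg.Agent.H8S

open Cfsg

variable {G : Type*} [Group G] [Finite G]

theorem conj_cover (P : Subgroup G) (x : G) (hxP : ∀ v ∈ P, x⁻¹ * v * x ∈ P)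
    (hc : ∀ v ∈ P, x * v = v * x → v = 1) : ∀ v ∈ P, ∃ w ∈ P, w * x * w⁻¹ = x * v := by
  let f : P → P := fun w => ⟨x⁻¹ * w * x * (w : G)⁻¹, mul_mem (hxP _ w.2) (inv_mem w.2)⟩
  have hinj : Function.Injective f := by
    intro v w hvw
    have h1 : x⁻¹ * (v : G) * x * (v : G)⁻¹ = x⁻¹ * w * x * (w : G)⁻¹ := congrArg Subtype.val hvw
    have h2 : x * ((w : G)⁻¹ * v) = ((w : G)⁻¹ * v) * x := by
      have h3 : (v : G) * x * (v : G)⁻¹ = w * x * (w : G)⁻¹ := by
        have := congrArg (fun z => x * z) h1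
        simpa [mul_assoc] using this
      have h4 : (v : G) * x = w * x * (w : G)⁻¹ * v := by rw [← h3]; group
      calc x * ((w : G)⁻¹ * v) = (w : G)⁻¹ * (w * x * (w : G)⁻¹ * v) := by group
        _ = (w : G)⁻¹ * (v * x) := by rw [← h4]
        _ = _ := by group
    have h3 := hc _ (mul_mem (inv_mem w.2) v.2) h2
    rw [inv_mul_eq_one] at h3
    exact Subtype.ext h3.symm
  have hsurj := Finite.injective_iff_surjective.1 hinj
  intro v hv
  obtain ⟨w, hw⟩ := hsurj ⟨v, hv⟩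
  refine ⟨w, w.2, ?_⟩
  have h1 : x⁻¹ * (w : G) * x * (w : G)⁻¹ = v := congrArg Subtype.val hw
  rw [← h1]; group

omit [Finite G] in
theorem chi_pow {n : ℕ} (ρ : Representation ℂ G (Fin n → ℂ)) (P : Subgroup G) [Fintype P] (hP : Fintype.card P = n)
    (hn : 0 < n) (hvan : ∀ v ∈ P, v ≠ 1 → ρ.character v = 0) (x : G)
    (hconj : ∀ v ∈ P, ρ.character (x * v) = ρ.character x) (hxP : ∀ v ∈ P, x * v * x⁻¹ ∈ P)
    {m : ℕ} (hm : x ^ m = 1) : (ρ.character x) ^ m = 1 := by
  classical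
  have hn0 : (n : ℂ) ≠ 0 := by exact_mod_cast hn.ne'
  set A : Module.End ℂ (Fin n → ℂ) := (n : ℂ)⁻¹ • ∑ v : P, ρ (v : G) with hA
  have hPA : ∀ v ∈ P, ρ v * A = A := by
    intro v hv
    rw [hA, mul_smul_comm, Finset.mul_sum]
    congr 1
    refine Fintype.sum_equiv (Equiv.mulLeft (⟨v, hv⟩ : P)) _ _ (fun w => ?_)
    show ρ v * ρ w = ρ (v * w)
    rw [map_mul]
  have hidem : A * A = A := by
    conv_lhs => rw [hA]
    rw [smul_mul_assoc, Finset.sum_mul, Finset.sum_congr rfl (fun v _ => hPA _ v.2), Finset.sum_const,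
      Finset.card_univ, hP, ← Nat.cast_smul_eq_nsmul ℂ, smul_smul, inv_mul_cancel₀ hn0, one_smul]
  have htrA : LinearMap.trace ℂ _ A = 1 := by
    rw [hA, map_smul, map_sum]
    have h1 : ∑ v : P, LinearMap.trace ℂ _ (ρ (v : G)) = n := by
      rw [Finset.sum_eq_single (1 : P)]
      · show ρ.character ((1 : P) : G) = n
        rw [OneMemClass.coe_one, Representation.char_one, Module.finrank_fin_fun]
      · intro v _ hv
        exact hvan _ v.2 (fun h => hv (Subtype.ext h))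
      · intro h; exact absurd (Finset.mem_univ _) h
    rw [h1, smul_eq_mul, inv_mul_cancel₀ hn0]
  have hrk : finrank ℂ (LinearMap.range A) = 1 := by
    have h1 := H79.MR.trace_idempotent (k := ℂ) hidem
    rw [htrA] at h1
    exact_mod_cast h1.symm
  obtain ⟨v0, hv00, hv0⟩ := finrank_eq_one_iff'.mp hrk
  have hAv0 : A (v0 : Fin n → ℂ) = v0 := by
    obtain ⟨y, hy⟩ := v0.2
    rw [← hy]
    exact congrArg (fun B : Module.End ℂ (Fin n → ℂ) => B y) hidem
  have hxA : ρ x * A = A * ρ x := by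
    rw [hA, mul_smul_comm, smul_mul_assoc, Finset.mul_sum, Finset.sum_mul]
    congr 1
    let e : P ≃ P := Equiv.ofBijective (fun v => ⟨x * v * x⁻¹, hxP _ v.2⟩) (by
      apply Finite.injective_iff_bijective.1
      intro a b hab
      have h1 : x * (a : G) * x⁻¹ = x * b * x⁻¹ := congrArg Subtype.val hab
      exact Subtype.ext (by simpa using h1))
    refine Fintype.sum_equiv e _ _ (fun v => ?_)
    show ρ x * ρ v = ρ (x * v * x⁻¹) * ρ x
    rw [← map_mul, ← map_mul]
    congr 1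
    group
  obtain ⟨c, hc⟩ : ∃ c : ℂ, ρ x (v0 : Fin n → ℂ) = c • (v0 : Fin n → ℂ) := by
    have h1 : ρ x (v0 : Fin n → ℂ) ∈ LinearMap.range A := by
      refine ⟨ρ x (v0 : Fin n → ℂ), ?_⟩
      show (A * ρ x) (v0 : Fin n → ℂ) = _
      rw [← hxA]
      show ρ x (A (v0 : Fin n → ℂ)) = _
      rw [hAv0]
    obtain ⟨c, hc⟩ := hv0 ⟨_, h1⟩
    exact ⟨c, (congrArg Subtype.val hc).symm⟩
  have hxcA : ρ x * A = c • A := by
    refine LinearMap.ext (fun y => ?_)
    show ρ x (A y) = c • A y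
    obtain ⟨d, hd⟩ := hv0 ⟨A y, ⟨y, rfl⟩⟩
    have h1 : A y = d • (v0 : Fin n → ℂ) := (congrArg Subtype.val hd).symm
    rw [h1, map_smul, hc, smul_comm]
  have hchi : ρ.character x = c := by
    have h1 : LinearMap.trace ℂ _ (ρ x * A) = c := by rw [hxcA, map_smul, htrA, smul_eq_mul, mul_one]
    rw [← h1, hA, mul_smul_comm, Finset.mul_sum, map_smul, map_sum]
    have h2 : ∀ v ∈ (Finset.univ : Finset P), LinearMap.trace ℂ _ (ρ x * ρ (v : G)) = ρ.character x := by
      intro v _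
      rw [← hconj _ v.2, ← map_mul]; rfl
    rw [Finset.sum_congr rfl h2, Finset.sum_const, Finset.card_univ, hP, smul_eq_mul, nsmul_eq_mul,
      ← mul_assoc, inv_mul_cancel₀ hn0, one_mul]
  have hv00' : (v0 : Fin n → ℂ) ≠ 0 := fun h => hv00 (Subtype.ext h)
  have hpow : ∀ i : ℕ, ρ (x ^ i) (v0 : Fin n → ℂ) = c ^ i • (v0 : Fin n → ℂ) := by
    intro i
    induction i with
    | zero => rw [pow_zero, pow_zero, map_one, one_smul]; rfl
    | succ i ih =>
      rw [pow_succ', map_mul]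
      show ρ x (ρ (x ^ i) (v0 : Fin n → ℂ)) = _
      rw [ih, map_smul, hc, smul_smul, pow_succ]
  have h1 := hpow m
  rw [hm, map_one] at h1
  have h2 : (c ^ m - 1) • (v0 : Fin n → ℂ) = 0 := by
    rw [sub_smul, one_smul, ← h1]
    exact sub_self _
  rw [hchi]
  exact sub_eq_zero.1 ((smul_eq_zero.1 h2).resolve_right hv00')

end Cfsg.Agent.H8S
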