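import Mathlib
import Cfsg.Agent.H12.DerivedFisher

/-!
# Counting conjugates of an involution in a triply transitive group
-/

set_option autoImplicit false
set_option linter.style.haveILetI false
set_option linter.unusedVariables false
set_option linter.unusedSectionVars false

open Subgroup MulAction

namespace Cfsg.Agent.H8S

variable {α : Type*} [Fintype α] [DecidableEq α]

theorem count_conj {G : Subgroup (Equiv.Perm α)} (h3 : IsMultiplyPretransitive G α 3)
    {t s : G} {a0 a b : α} (ht2 : ∀ c : α, t • t • c = c) (hta : t • a0 = a0) (htc : ∀ c : α, c ≠ a0 → t • c ≠ c)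
    (hab : a ≠ b) (ha : a ≠ a0) (hb : b ≠ a0)
    (hs0 : s • a0 = a0) (hsa : s • a = b) (hsb : s • b = a) {n : ℕ}
    (hn : Nat.card (centralizer ({t} : Set G)) ≤ n) :
    Fintype.card α - 1 ≤ n ∧ (n ≤ Fintype.card α - 1 → ∃ h : G, h • a0 = a0 ∧ h * t * h⁻¹ = s) := by
  classical
  let M : Subgroup G := stabilizer G a0 ⊓ (stabilizer G a ⊓ stabilizer G b)
  have hM : ∀ k : G, k ∈ M ↔ k • a0 = a0 ∧ k • a = a ∧ k • b = b := by
    intro k
    simp only [M, Subgroup.mem_inf, mem_stabilizer_iff]
  -- the chosen elements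
  have hex : ∀ c : {c : α // c ≠ a0}, ∃ h : G, h • a0 = a0 ∧ h • (c : α) = a ∧ h • (t • (c : α)) = b := by
    intro c
    have h1 : a0 ≠ t • (c : α) := by
      intro h
      apply c.2
      exact (MulAction.injective t (hta.trans h)).symm
    exact H12.exists_smul_triple h3 c.2.symm h1 (htc c c.2).symm ha.symm hb.symm hab
  choose hh h0 h1 h2 using hex
  haveI := Fintype.ofFinite M
  haveI := Fintype.ofFinite G
  let f : {c : α // c ≠ a0} × M → G := fun x => ((x.2 : G) * hh x.1) * t * ((x.2 : G) * hh x.1)⁻¹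
  -- f lands in X
  have hfX : ∀ x, f x • a0 = a0 ∧ f x • a = b ∧ f x • b = a := by
    rintro ⟨c, k⟩
    obtain ⟨k0, k1, k2⟩ := (hM k).1 k.2
    have i0 : ((k : G) * hh c)⁻¹ • a0 = a0 := by
      rw [inv_smul_eq_iff, mul_smul, h0, k0]
    have i1 : ((k : G) * hh c)⁻¹ • a = c := by
      rw [inv_smul_eq_iff, mul_smul, h1, k1]
    have i2 : ((k : G) * hh c)⁻¹ • b = t • (c : α) := by
      rw [inv_smul_eq_iff, mul_smul, h2, k2]
    refine ⟨?_, ?_, ?_⟩
    · show (((k : G) * hh c) * t * ((k : G) * hh c)⁻¹) • a0 = a0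
      rw [mul_smul, i0, mul_smul, hta, mul_smul, h0, k0]
    · show (((k : G) * hh c) * t * ((k : G) * hh c)⁻¹) • a = b
      rw [mul_smul, i1, mul_smul, mul_smul, h2, k2]
    · show (((k : G) * hh c) * t * ((k : G) * hh c)⁻¹) • b = a
      rw [mul_smul, i2, mul_smul, ht2, mul_smul, h1, k1]
  -- injectivity of the parametrisation
  have hinj : Function.Injective (fun x : {c : α // c ≠ a0} × M => (x.2 : G) * hh x.1) := by
    rintro ⟨c, k⟩ ⟨c', k'⟩ h
    have h' : (k : G) * hh c = k' * hh c' := h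
    obtain ⟨k0, k1, k2⟩ := (hM k).1 k.2
    obtain ⟨k0', k1', k2'⟩ := (hM k').1 k'.2
    have e1 : ((k : G) * hh c) • (c : α) = a := by rw [mul_smul, h1, k1]
    have e2 : ((k' : G) * hh c') • (c' : α) = a := by rw [mul_smul, h1, k1']
    have e3 : c = c' := by
      apply Subtype.ext
      apply MulAction.injective ((k : G) * hh c)
      show ((k : G) * hh c) • (c : α) = ((k : G) * hh c) • (c' : α)
      rw [e1, h', e2]
    subst e3
    have e4 : (k : G) = k' := mul_right_cancel h'
    rw [Subtype.ext e4]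
  -- fibres
  have hfib : ∀ y ∈ (Finset.univ : Finset ({c : α // c ≠ a0} × M)).image f,
      (Finset.univ.filter (fun x : {c : α // c ≠ a0} × M => f x = y)).card ≤ n := by
    intro y hy
    obtain ⟨x0, -, rfl⟩ := Finset.mem_image.1 hy
    refine le_trans ?_ hn
    rw [Nat.card_eq_fintype_card, ← Finset.card_univ]
    have hmem : ∀ x ∈ Finset.univ.filter (fun x : {c : α // c ≠ a0} × M => f x = f x0),
        ((x0.2 : G) * hh x0.1)⁻¹ * ((x.2 : G) * hh x.1) ∈ centralizer ({t} : Set G) := by
      intro x hx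
      have h4 : ((x.2 : G) * hh x.1) * t * ((x.2 : G) * hh x.1)⁻¹ =
        ((x0.2 : G) * hh x0.1) * t * ((x0.2 : G) * hh x0.1)⁻¹ := (Finset.mem_filter.1 hx).2
      rw [Subgroup.mem_centralizer_singleton_iff]
      set v := (x.2 : G) * hh x.1
      set w := (x0.2 : G) * hh x0.1
      calc w⁻¹ * v * t = w⁻¹ * (v * t * v⁻¹) * v := by group
        _ = w⁻¹ * (w * t * w⁻¹) * v := by rw [h4]
        _ = t * (w⁻¹ * v) := by group
    refine Finset.card_le_card_of_injOn
      (fun x => if h : ((x0.2 : G) * hh x0.1)⁻¹ * ((x.2 : G) * hh x.1) ∈ centralizer ({t} : Set G)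
        then (⟨_, h⟩ : centralizer ({t} : Set G)) else 1) (fun _ _ => Finset.mem_coe.2 (Finset.mem_univ _)) ?_
    intro x hx x' hx' hxx
    simp only at hxx
    rw [dif_pos (hmem x hx), dif_pos (hmem x' hx')] at hxx
    have h5 := congrArg Subtype.val hxx
    exact hinj (mul_left_cancel h5)
  have hcard := Finset.card_le_mul_card_image (f := f) (Finset.univ : Finset ({c : α // c ≠ a0} × M)) n hfib
  have hcd : (Finset.univ : Finset ({c : α // c ≠ a0} × M)).card = (Fintype.card α - 1) * Fintype.card M := by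
    rw [Finset.card_univ, Fintype.card_prod]
    congr 1
    have := Fintype.card_subtype_compl (fun c : α => c = a0)
    rw [Fintype.card_subtype_eq] at this
    exact this
  let X : Finset G := Finset.univ.filter (fun g : G => g • a0 = a0 ∧ g • a = b ∧ g • b = a)
  have hXM : X.card ≤ Fintype.card M := by
    rw [← Finset.card_univ]
    have hmem : ∀ g ∈ X, s⁻¹ * g ∈ M := by
      intro g hg
      obtain ⟨g0, g1, g2⟩ := (Finset.mem_filter.1 hg).2
      rw [hM]
      refine ⟨?_, ?_, ?_⟩
      · rw [mul_smul, g0, inv_smul_eq_iff, hs0]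
      · rw [mul_smul, g1, inv_smul_eq_iff, hsa]
      · rw [mul_smul, g2, inv_smul_eq_iff, hsb]
    refine Finset.card_le_card_of_injOn (fun g => if h : s⁻¹ * g ∈ M then (⟨_, h⟩ : M) else 1)
      (fun _ _ => Finset.mem_coe.2 (Finset.mem_univ _)) ?_
    intro x hx x' hx' hxx
    simp only at hxx
    rw [dif_pos (hmem x hx), dif_pos (hmem x' hx')] at hxx
    exact mul_left_cancel (congrArg Subtype.val hxx)
  have hsub : (Finset.univ : Finset ({c : α // c ≠ a0} × M)).image f ⊆ X := by
    intro y hy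
    obtain ⟨x0, -, rfl⟩ := Finset.mem_image.1 hy
    exact Finset.mem_filter.2 ⟨Finset.mem_univ _, hfX x0⟩
  have hle := Finset.card_le_card hsub
  have hM0 : 0 < Fintype.card M := Fintype.card_pos
  rw [hcd] at hcard
  constructor
  · have h4 : (Fintype.card α - 1) * Fintype.card M ≤ n * Fintype.card M :=
      le_trans hcard (Nat.mul_le_mul_left _ (le_trans hle hXM))
    exact Nat.le_of_mul_le_mul_right h4 hM0
  · intro hnle
    have hpos : 0 < Fintype.card α - 1 := by
      have h4 : 1 < Fintype.card α := Fintype.one_lt_card_iff.2 ⟨a, b, hab⟩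
      omega
    have h4 : Fintype.card M ≤ ((Finset.univ : Finset ({c : α // c ≠ a0} × M)).image f).card := by
      have h5 := le_trans hcard (Nat.mul_le_mul_right _ hnle)
      exact Nat.le_of_mul_le_mul_left h5 hpos
    have h5 : (Finset.univ : Finset ({c : α // c ≠ a0} × M)).image f = X :=
      Finset.eq_of_subset_of_card_le hsub (le_trans hXM h4)
    have h6 : s ∈ X := Finset.mem_filter.2 ⟨Finset.mem_univ _, hs0, hsa, hsb⟩
    rw [← h5] at h6
    obtain ⟨⟨c, k⟩, -, hck⟩ := Finset.mem_image.1 h6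
    refine ⟨(k : G) * hh c, ?_, hck⟩
    rw [mul_smul, h0, ((hM k).1 k.2).1]

end Cfsg.Agent.H8S
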