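import Mathlib
import Cfsg.Agent.H79.ModTr

/-!
# Restriction of a simple modular representation to a Sylow subgroup of order `p`
-/

set_option autoImplicit false
set_option linter.style.haveILetI false

open Module Subgroup

namespace Cfsg.Agent.H8S

open Cfsg.Agent.H79.MR

universe u v w

section

variable {G : Type u} [Group G] [Finite G] {p : ℕ} [hp : Fact p.Prime]
  {k : Type v} [Field k] [CharP k p] {V : Type w} [AddCommGroup V] [Module k V]

theorem mem_zpowers_of_ne {u : G} (hu : orderOf u = p) (x : zpowers u) (hx1 : x ≠ 1) :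
    u ∈ zpowers (x : G) := by
  have hcard : Nat.card (zpowers u) = p := by rw [Nat.card_zpowers, hu]
  have h4 : zpowers (x : G) ≤ zpowers u := by
    rw [zpowers_le]; exact x.2
  have h5 : zpowers (x : G) = zpowers u := by
    apply Subgroup.eq_of_le_of_card_ge h4
    have h6 : Nat.card (zpowers (x : G)) ∣ p := by
      rw [← hcard]; exact Subgroup.card_dvd_of_le h4
    rcases (Nat.dvd_prime hp.out).mp h6 with h7 | h7
    · exfalso
      rw [Nat.card_zpowers, orderOf_eq_one_iff] at h7
      exact hx1 (Subtype.ext h7)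
    · rw [h7, hcard]
  rw [h5]; exact mem_zpowers u

theorem sum_zpowers (σ : G →* Module.End k V) {u : G} (hu : orderOf u = p) [Fintype (zpowers u)] (h : V) :
    ∑ x : zpowers u, σ (x : G) h = ((σ u - 1) ^ (p - 1)) h := by
  classical
  rw [← geom_eq_aeval (k := k) (p := p) (σ u)]
  have h1 : ∑ x : zpowers u, σ (x : G) h = ∑ i : Fin (orderOf u), σ (u ^ (i : ℕ)) h := by
    symm
    apply Fintype.sum_equiv (finEquivZPowers (isOfFinOrder_of_finite u))
    intro i
    rw [finEquivZPowers_apply]
  rw [h1, Fin.sum_univ_eq_sum_range (fun i => σ (u ^ i) h) (orderOf u), hu, LinearMap.sum_apply]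
  exact Finset.sum_congr rfl (fun i _ => by rw [map_pow])

theorem sum_nonfixed (σ : G →* Module.End k V) {u : G} (hu : orderOf u = p)
    {X : Type*} [MulAction G X] (F : X → V) (hF : ∀ (x : zpowers u) (a : X), F ((x : G) • a) = σ x (F a))
    (S : Finset X) (hS : ∀ a, a ∈ S ↔ u • a ≠ a) :
    ∃ y : V, ∑ a ∈ S, F a = ((σ u - 1) ^ (p - 1)) y := by
  classical
  haveI := Fintype.ofFinite (zpowers u)
  have hfixz : ∀ (x : zpowers u) (a : X), x ≠ 1 → (x : G) • a = a → u • a = a := by
    intro x a hx1 hxa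
    obtain ⟨j, hj⟩ := mem_zpowers_of_ne hu x hx1
    have h1 : (x : G) ∈ MulAction.stabilizer G a := hxa
    have h2 := zpow_mem h1 j
    have h3 : (x : G) ^ j = u := hj
    rw [h3] at h2
    exact h2
  have hst : ∀ (x : zpowers u) (a : X), a ∈ S → x • a ∈ S := by
    intro x a ha
    rw [hS] at ha ⊢
    intro h
    apply ha
    have h1 : (x : G) • (u • a) = (x : G) • a := by
      have h2 : (x : G) * u = u * x := by
        obtain ⟨i, hi⟩ := x.2
        rw [← hi]
        exact (Commute.refl u).zpow_left i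
      rw [← mul_smul, h2, mul_smul]
      exact h
    exact MulAction.injective _ h1
  have hfree : ∀ a ∈ S, ∀ x : zpowers u, x • a = a → x = 1 := by
    intro a ha x hx
    by_contra hx1
    exact (hS a).1 ha (hfixz x a hx1 hx)
  obtain ⟨h, hh⟩ := exists_free_sum F (fun x : zpowers u => (σ (x : G)).toAddMonoidHom) hF S hst hfree
  refine ⟨h, ?_⟩
  rw [hh, ← sum_zpowers σ hu h]
  rfl

theorem fixed_coset {u : G} (hu : orderOf u = p) (hsq : ¬ p ^ 2 ∣ Nat.card G) {g : G}
    (h : u • (QuotientGroup.mk g : G ⧸ zpowers u) = QuotientGroup.mk g) :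
    g ∈ normalizer ((zpowers u : Subgroup G) : Set G) := by
  apply mem_normalizer_of_conj hu hsq
  have h1 : (QuotientGroup.mk (u * g) : G ⧸ zpowers u) = QuotientGroup.mk g := h
  rw [eq_comm, QuotientGroup.eq] at h1
  rw [mul_assoc]
  exact le_normalizer h1

variable [FiniteDimensional k V]

theorem spanned (ρ : G →* Module.End k V) {u : G} (hu : orderOf u = p) (hsq : ¬ p ^ 2 ∣ Nat.card G)
    (hSchur : ∀ a : Module.End k V, (∀ g : G, ρ g * a = a * ρ g) → ∃ c : k, a = c • 1)
    (f : Module.End k V) (hfu : ρ u * f = f * ρ u) (htr : LinearMap.trace k V f ≠ 0)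
    (z : V) (hz : ∀ n ∈ normalizer ((zpowers u : Subgroup G) : Set G), ∃ c : k, ρ n z = c • z)
    (hf : ∀ v, ρ u v = v → ∃ c : k, f v = c • z) :
    ∀ v, ρ u v = v → ∃ (c : k) (y : V), v = c • z + ((ρ u - 1) ^ (p - 1)) y := by
  classical
  haveI := Fintype.ofFinite (G ⧸ zpowers u)
  have hσ1 : ∀ g : G, ρ g * ρ g⁻¹ = 1 := fun g => by rw [← map_mul, mul_inv_cancel, map_one]
  have hσ2 : ∀ g : G, ρ g⁻¹ * ρ g = 1 := fun g => by rw [← map_mul, inv_mul_cancel, map_one]
  -- `f` commutes with the powers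
  have hfP : ∀ n ∈ zpowers u, ρ n * f = f * ρ n := by
    intro n hn
    have h1 : u ∈ ({ carrier := {n | ρ n * f = f * ρ n}
                     one_mem' := by simp
                     mul_mem' := by
                      intro a b ha hb
                      simp only [Set.mem_setOf_eq] at ha hb ⊢
                      rw [map_mul, mul_assoc, hb, ← mul_assoc, ha, mul_assoc]
                     inv_mem' := by
                      intro a ha
                      simp only [Set.mem_setOf_eq] at ha ⊢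
                      calc ρ a⁻¹ * f = ρ a⁻¹ * f * (ρ a * ρ a⁻¹) := by rw [hσ1, mul_one]
                        _ = ρ a⁻¹ * (f * ρ a) * ρ a⁻¹ := by simp only [mul_assoc]
                        _ = ρ a⁻¹ * (ρ a * f) * ρ a⁻¹ := by rw [ha]
                        _ = (ρ a⁻¹ * ρ a) * f * ρ a⁻¹ := by simp only [mul_assoc]
                        _ = f * ρ a⁻¹ := by rw [hσ2, one_mul] } : Subgroup G) := hfu
    exact (zpowers_le.2 h1) hn
  let φ : G ⧸ zpowers u → Module.End k V := fun q => ρ q.out * f * ρ (q.out)⁻¹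
  have hφmk : ∀ g : G, φ (QuotientGroup.mk g) = ρ g * f * ρ g⁻¹ := by
    intro g
    obtain ⟨n, hn⟩ := QuotientGroup.mk_out_eq_mul (zpowers u) g
    show ρ (QuotientGroup.mk g : G ⧸ zpowers u).out * f * ρ ((QuotientGroup.mk g : G ⧸ zpowers u).out)⁻¹ = _
    rw [hn, mul_inv_rev, map_mul, map_mul]
    calc ρ g * ρ (n : G) * f * (ρ (n : G)⁻¹ * ρ g⁻¹)
        = ρ g * (ρ (n : G) * f) * (ρ (n : G)⁻¹ * ρ g⁻¹) := by simp only [mul_assoc]
      _ = ρ g * f * (ρ (n : G) * ρ (n : G)⁻¹) * ρ g⁻¹ := by
          rw [hfP _ n.2]; simp only [mul_assoc]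
      _ = ρ g * f * ρ g⁻¹ := by rw [hσ1, mul_one]
  have hφact : ∀ (x : G) (q : G ⧸ zpowers u), φ (x • q) = ρ x * φ q * ρ x⁻¹ := by
    intro x q
    obtain ⟨g, rfl⟩ := QuotientGroup.mk_surjective q
    have h1 : x • (QuotientGroup.mk g : G ⧸ zpowers u) = QuotientGroup.mk (x * g) := rfl
    rw [h1, hφmk, hφmk, map_mul, mul_inv_rev, map_mul]
    simp only [mul_assoc]
  set F : Module.End k V := ∑ q : G ⧸ zpowers u, φ q with hF
  have hFG : ∀ g : G, ρ g * F = F * ρ g := by
    intro g
    have h1 : ρ g * F * ρ g⁻¹ = F := by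
      rw [hF, Finset.mul_sum, Finset.sum_mul]
      simp only [← hφact]
      exact Fintype.sum_equiv (MulAction.toPerm g) _ _ (fun q => rfl)
    calc ρ g * F = ρ g * F * (ρ g⁻¹ * ρ g) := by rw [hσ2, mul_one]
      _ = (ρ g * F * ρ g⁻¹) * ρ g := by simp only [mul_assoc]
      _ = F * ρ g := by rw [h1]
  obtain ⟨c0, hc0⟩ := hSchur F hFG
  -- the scalar is not zero
  have hc0n : c0 ≠ 0 := by
    intro h0
    have h1 : LinearMap.trace k V F = 0 := by rw [hc0, h0, zero_smul, map_zero]
    have h2 : LinearMap.trace k V F = (Fintype.card (G ⧸ zpowers u) : k) * LinearMap.trace k V f := by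
      rw [hF, map_sum]
      have h3 : ∀ q : G ⧸ zpowers u, LinearMap.trace k V (φ q) = LinearMap.trace k V f := by
        intro q
        show LinearMap.trace k V (ρ q.out * f * ρ (q.out)⁻¹) = _
        rw [LinearMap.trace_mul_comm, ← mul_assoc, hσ2, one_mul]
      rw [Finset.sum_congr rfl (fun q _ => h3 q), Finset.sum_const, Finset.card_univ, nsmul_eq_mul]
    rw [h1] at h2
    have h3 : (Fintype.card (G ⧸ zpowers u) : k) ≠ 0 := by
      intro h4
      rw [CharP.cast_eq_zero_iff k p] at h4
      apply hsq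
      have h5 := Subgroup.card_mul_index (zpowers u)
      rw [Nat.card_zpowers, hu] at h5
      have h6 : (zpowers u).index = Fintype.card (G ⧸ zpowers u) := by
        rw [Subgroup.index, Nat.card_eq_fintype_card]
      rw [h6] at h5
      rw [← h5, pow_two]
      exact mul_dvd_mul_left p h4
    exact (mul_ne_zero h3 htr) h2.symm
  intro v hv
  have hPv : ∀ x ∈ zpowers u, ρ x v = v := by
    intro x hx
    have h1 : u ∈ ({ carrier := {n | ρ n v = v}
                     one_mem' := by simp
                     mul_mem' := by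
                      intro a b ha hb
                      simp only [Set.mem_setOf_eq] at ha hb ⊢
                      rw [map_mul]
                      show ρ a (ρ b v) = v
                      rw [hb, ha]
                     inv_mem' := by
                      intro a ha
                      simp only [Set.mem_setOf_eq] at ha ⊢
                      have h2 : (ρ a⁻¹ * ρ a) v = v := by rw [hσ2]; rfl
                      have h3 : ρ a⁻¹ (ρ a v) = v := h2
                      rwa [ha] at h3 } : Subgroup G) := hv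
    exact (zpowers_le.2 h1) hx
  have hFv : F v = c0 • v := by rw [hc0]; rfl
  let S : Finset (G ⧸ zpowers u) := Finset.univ.filter (fun q => u • q ≠ q)
  obtain ⟨y, hy⟩ := sum_nonfixed ρ hu (fun q : G ⧸ zpowers u => φ q v) (by
    intro x q
    show φ ((x : G) • q) v = _
    rw [hφact]
    show ρ (x : G) (φ q (ρ (x : G)⁻¹ v)) = _
    rw [hPv _ (inv_mem x.2)]) S (fun a => by simp [S])
  have hsum : ∃ c : k, ∑ q ∈ Finset.univ.filter (fun q : G ⧸ zpowers u => ¬ (u • q ≠ q)), φ q v = c • z := by
    have h1 : ∀ q ∈ Finset.univ.filter (fun q : G ⧸ zpowers u => ¬ (u • q ≠ q)),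
        φ q v ∈ Submodule.span k {z} := by
      intro q hq
      rw [Finset.mem_filter, not_not] at hq
      obtain ⟨g, rfl⟩ := QuotientGroup.mk_surjective q
      have hgN := fixed_coset hu hsq hq.2
      rw [hφmk]
      show ρ g (f (ρ g⁻¹ v)) ∈ _
      have h2 : ρ u (ρ g⁻¹ v) = ρ g⁻¹ v := by
        have h3 : u * g⁻¹ = g⁻¹ * (g * u * g⁻¹) := by group
        have h4 : g * u * g⁻¹ ∈ zpowers u := (Subgroup.mem_normalizer_iff.1 hgN u).1 (mem_zpowers u)
        show (ρ u * ρ g⁻¹) v = _
        rw [← map_mul, h3, map_mul]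
        show ρ g⁻¹ (ρ (g * u * g⁻¹) v) = _
        rw [hPv _ h4]
      obtain ⟨c, hc⟩ := hf _ h2
      obtain ⟨c', hc'⟩ := hz g hgN
      rw [hc, map_smul, hc']
      exact Submodule.smul_mem _ _ (Submodule.smul_mem _ _ (Submodule.mem_span_singleton_self z))
    obtain ⟨c, hc⟩ := Submodule.mem_span_singleton.1 (Submodule.sum_mem _ h1)
    exact ⟨c, hc.symm⟩
  obtain ⟨c, hc⟩ := hsum
  have h1 : c0 • v = ((ρ u - 1) ^ (p - 1)) y + c • z := by
    rw [← hFv, hF, LinearMap.sum_apply, ← hy, ← hc]
    exact (Finset.sum_filter_add_sum_filter_not Finset.univ (fun q : G ⧸ zpowers u => u • q ≠ q) _).symm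
  refine ⟨c0⁻¹ * c, c0⁻¹ • y, ?_⟩
  rw [map_smul, mul_smul, ← smul_add, add_comm, ← h1, smul_smul, inv_mul_cancel₀ hc0n, one_smul]

/-- a vector fixed by the normalizer gives a fixed vector -/
theorem fixed_vector (ρ : G →* Module.End k V) {u : G} (hu : orderOf u = p) (hsq : ¬ p ^ 2 ∣ Nat.card G)
    (z : V) (hz : ∀ n ∈ normalizer ((zpowers u : Subgroup G) : Set G), ρ n z = z)
    (hz2 : ∀ y, z ≠ ((ρ u - 1) ^ (p - 1)) y) : ∃ w : V, w ≠ 0 ∧ ∀ g : G, ρ g w = w := by
  classical
  set N := normalizer ((zpowers u : Subgroup G) : Set G) with hN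
  haveI := Fintype.ofFinite (G ⧸ N)
  let F : G ⧸ N → V := fun q => ρ q.out z
  have hFmk : ∀ g : G, F (QuotientGroup.mk g) = ρ g z := by
    intro g
    obtain ⟨n, hn⟩ := QuotientGroup.mk_out_eq_mul N g
    show ρ (QuotientGroup.mk g : G ⧸ N).out z = _
    rw [hn, map_mul]
    show ρ g (ρ (n : G) z) = _
    rw [hz _ n.2]
  have hFact : ∀ (x : G) (q : G ⧸ N), F (x • q) = ρ x (F q) := by
    intro x q
    obtain ⟨g, rfl⟩ := QuotientGroup.mk_surjective q
    have h1 : x • (QuotientGroup.mk g : G ⧸ N) = QuotientGroup.mk (x * g) := rfl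
    rw [h1, hFmk, hFmk, map_mul]
    rfl
  obtain ⟨y, hy⟩ := sum_nonfixed ρ hu F (fun x a => hFact x a)
    (Finset.univ.filter (fun q : G ⧸ N => u • q ≠ q)) (fun a => by simp)
  have h1 : Finset.univ.filter (fun q : G ⧸ N => ¬ (u • q ≠ q)) = {QuotientGroup.mk 1} := by
    ext q
    rw [Finset.mem_filter, not_not, Finset.mem_singleton]
    constructor
    · rintro ⟨-, h⟩
      obtain ⟨g, rfl⟩ := QuotientGroup.mk_surjective q
      have h1 : (QuotientGroup.mk (u * g) : G ⧸ N) = QuotientGroup.mk g := h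
      rw [eq_comm, QuotientGroup.eq, ← mul_assoc] at h1
      have h2 := mem_normalizer_of_conj hu hsq h1
      rw [QuotientGroup.eq]
      simpa using h2
    · rintro rfl
      refine ⟨Finset.mem_univ _, ?_⟩
      show (QuotientGroup.mk (u * 1) : G ⧸ N) = QuotientGroup.mk 1
      rw [QuotientGroup.eq]
      simpa using inv_mem (le_normalizer (mem_zpowers u))
  have h2 : ∑ q : G ⧸ N, F q = ((ρ u - 1) ^ (p - 1)) y + z := by
    rw [← Finset.sum_filter_add_sum_filter_not Finset.univ (fun q : G ⧸ N => u • q ≠ q), hy, h1,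
      Finset.sum_singleton, hFmk, map_one]
    rfl
  refine ⟨∑ q : G ⧸ N, F q, ?_, ?_⟩
  · intro h0
    rw [h0] at h2
    apply hz2 (-y)
    rw [map_neg]
    exact (neg_eq_of_add_eq_zero_right h2.symm).symm
  · intro g
    rw [map_sum]
    simp only [← hFact]
    exact Fintype.sum_equiv (MulAction.toPerm g) _ _ (fun q => rfl)

end

end Cfsg.Agent.H8S
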