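import Mathlib
import Cfsg.Agent.H12.PrimeDegreeC
import Cfsg.Agent.H74.PrimeHalf

/-!
# Sylow normalizers of transitive groups of prime degree
-/

set_option autoImplicit false
set_option linter.style.haveILetI false

open Subgroup

namespace Cfsg.Agent.H8S

variable {α : Type*} [Fintype α] [DecidableEq α] {p : ℕ} [hp : Fact p.Prime]

theorem pow_coord {G : Subgroup (Equiv.Perm α)} {u : G} {c : α ≃ ZMod p}
    (hc : ∀ a, c ((u : Equiv.Perm α) a) = c a + 1) (m : ℕ) (a : α) :
    c (((u ^ m : G) : Equiv.Perm α) a) = c a + m := by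
  induction m with
  | zero => simp
  | succ m ih =>
    rw [pow_succ']
    show c ((u : Equiv.Perm α) (((u ^ m : G) : Equiv.Perm α) a)) = _
    rw [hc, ih]; push_cast; ring

theorem mem_zpowers_of_translation {G : Subgroup (Equiv.Perm α)} {u : G} {c : α ≃ ZMod p}
    (hc : ∀ a, c ((u : Equiv.Perm α) a) = c a + 1) {g : G} {b : ZMod p}
    (hg : ∀ a, c ((g : Equiv.Perm α) a) = c a + b) : g ∈ zpowers u := by
  have h1 : g = u ^ b.val := by
    apply Subtype.ext
    apply Equiv.ext
    intro a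
    apply c.injective
    rw [hg, pow_coord hc, ZMod.natCast_zmod_val]
  rw [h1]
  exact pow_mem (mem_zpowers u) _

theorem setup (hα : Fintype.card α = p) (G : Subgroup (Equiv.Perm α)) [MulAction.IsPretransitive G α]
    (P : Sylow p G) (E : Subgroup G) (hEN : E ≤ normalizer ((P : Subgroup G) : Set G))
    (hPE' : (P : Subgroup G) ⊓ E = ⊥) :
    ∃ (u : G) (a0 : α), (P : Subgroup G) = zpowers u ∧ orderOf u = p ∧ (∀ g, g * u = u * g → g ∈ (P : Subgroup G)) ∧
      IsCyclic E ∧ ∀ x ∈ E, x ≠ 1 → ∀ a : α, x • a = a ↔ a = a0 := by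
  classical
  obtain ⟨hPc, -⟩ := H12.sylow_eq_zpowers hα G P
  obtain ⟨u, c, hPu, hc⟩ := Cfsg.Agent.H74.PD.exists_setup hα G P
  have hu : orderOf u = p := by rw [← hPc, hPu, Nat.card_zpowers]
  have haff : ∀ g ∈ normalizer ((P : Subgroup G) : Set G), ∃ k b : ZMod p, ∀ a, c ((g : Equiv.Perm α) a) = k * c a + b := by
    intro g hg
    apply H12.affine_of_normalizes (u : Equiv.Perm α) (g : Equiv.Perm α) c hc
    have h0 : u ∈ (P : Subgroup G) := by rw [hPu]; exact mem_zpowers u
    have h1 : g * u * g⁻¹ ∈ (P : Subgroup G) := (Subgroup.mem_normalizer_iff.1 hg u).1 h0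
    rw [hPu] at h1
    obtain ⟨i, hi⟩ := h1
    refine ⟨i, ?_⟩
    have h2 := congrArg (Subtype.val) hi
    exact h2
  have hcent : ∀ g, g * u = u * g → g ∈ (P : Subgroup G) := by
    intro g hg
    have hgN : g ∈ normalizer ((P : Subgroup G) : Set G) := by
      apply Subgroup.centralizer_le_normalizer
      rw [hPu]
      rw [Subgroup.mem_centralizer_iff]
      rintro _ ⟨i, rfl⟩
      exact ((show Commute g u from hg).zpow_right i).symm
    obtain ⟨k, b, hkb⟩ := haff g hgN
    have h1 : ∀ a, k * (c a + 1) + b = k * c a + b + 1 := by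
      intro a
      rw [← hc, ← hkb, ← hkb, ← hc]
      have h2 := congrArg (fun z : G => (z : Equiv.Perm α) a) hg
      exact congrArg c h2
    have hk : k = 1 := by
      have h2 := h1 (c.symm 0)
      linear_combination h2
    rw [hPu]
    apply mem_zpowers_of_translation hc (b := b)
    intro a
    rw [hkb, hk, one_mul]
  -- the linear part
  have haffE : ∀ g : E, ∃ k b : ZMod p, ∀ a, c (((g : G) : Equiv.Perm α) a) = k * c a + b := fun g => haff g (hEN g.2)
  choose kk bb hkb using haffE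
  have hk1 : ∀ g : E, kk g = 1 → g = 1 := by
    intro g hg
    have h1 : (g : G) ∈ (P : Subgroup G) := by
      rw [hPu]
      apply mem_zpowers_of_translation hc (b := bb g)
      intro a
      rw [hkb, hg, one_mul]
    have h2 : (g : G) ∈ (P : Subgroup G) ⊓ E := ⟨h1, g.2⟩
    rw [hPE', Subgroup.mem_bot] at h2
    exact Subtype.ext h2
  have hkmul : ∀ g h : E, kk (g * h) = kk g * kk h := by
    intro g h
    have h1 : ∀ a, kk (g * h) * c a + bb (g * h) = kk g * (kk h * c a + bb h) + bb g := by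
      intro a
      rw [← hkb, ← hkb, ← hkb]
      rfl
    have h2 := h1 (c.symm 0)
    have h3 := h1 (c.symm 1)
    rw [Equiv.apply_symm_apply] at h2 h3
    linear_combination h3 - h2
  have hkone : kk 1 = 1 := by
    have h1 : ∀ a, kk 1 * c a + bb 1 = c a := by
      intro a
      rw [← hkb]; rfl
    have h2 := h1 (c.symm 0)
    have h3 := h1 (c.symm 1)
    rw [Equiv.apply_symm_apply] at h2 h3
    linear_combination h3 - h2
  let f : E →* ZMod p := { toFun := kk, map_one' := hkone, map_mul' := hkmul }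
  have hf : Function.Injective f := by
    rw [injective_iff_map_eq_one]
    exact hk1
  haveI hcyc : IsCyclic E := isCyclic_of_subgroup_isDomain f hf
  obtain ⟨g0, hg0⟩ := hcyc.exists_generator
  -- fixed points
  have hfix : ∀ g : E, g ≠ 1 → ∀ a, ((g : G) : Equiv.Perm α) a = a ↔ c a = bb g / (1 - kk g) := by
    intro g hg a
    have hk : 1 - kk g ≠ 0 := by
      intro h
      exact hg (hk1 g (sub_eq_zero.1 h).symm)
    rw [eq_div_iff hk, ← c.injective.eq_iff, hkb]
    constructor
    · intro h; linear_combination -h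
    · intro h; linear_combination -h
  refine ⟨u, c.symm (bb g0 / (1 - kk g0)), hPu, hu, hcent, hcyc, ?_⟩
  intro x hx hx1 a
  have hg01 : g0 ≠ 1 := by
    rintro rfl
    obtain ⟨i, hi⟩ := hg0 ⟨x, hx⟩
    apply hx1
    have h1 := congrArg Subtype.val hi
    simpa using h1.symm
  have hxne : (⟨x, hx⟩ : E) ≠ 1 := fun h => hx1 (congrArg Subtype.val h)
  have h0 : ((g0 : G) : Equiv.Perm α) (c.symm (bb g0 / (1 - kk g0))) = c.symm (bb g0 / (1 - kk g0)) := by
    rw [hfix g0 hg01, Equiv.apply_symm_apply]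
  have h1 : (x : Equiv.Perm α) (c.symm (bb g0 / (1 - kk g0))) = c.symm (bb g0 / (1 - kk g0)) := by
    obtain ⟨i, hi⟩ := hg0 ⟨x, hx⟩
    have h2 : (g0 : G) ∈ MulAction.stabilizer G (c.symm (bb g0 / (1 - kk g0))) := h0
    have h3 := zpow_mem h2 i
    have h4 : (g0 : G) ^ i = x := congrArg Subtype.val hi
    rw [h4] at h3
    exact h3
  have h2 := hfix ⟨x, hx⟩ hxne
  have h3 := (h2 _).1 h1
  rw [Equiv.apply_symm_apply] at h3
  constructor
  · intro h
    have h4 := (h2 a).1 h
    rw [← h3] at h4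
    rw [Equiv.eq_symm_apply]
    exact h4
  · rintro rfl
    exact h1

theorem not_sq_dvd (hα : Fintype.card α = p) (G : Subgroup (Equiv.Perm α)) [MulAction.IsPretransitive G α] :
    ¬ p ^ 2 ∣ Nat.card G := by
  obtain ⟨m, hm, hpm⟩ := H12.sylow_card_of_prime_degree hα G
  rw [hm, pow_two]
  intro h
  exact hpm (Nat.dvd_of_mul_dvd_mul_left hp.out.pos h)

end Cfsg.Agent.H8S
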