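import Mathlib
import Cfsg.Agent.H8S.PermA
import Cfsg.Agent.H8S.CharA
import Cfsg.Agent.H8S.Jord
import Cfsg.Agent.H12.SmallPrimeDegree
import Cfsg.Agent.H75.Tools
import Cfsg.Agent.H76.RealOdd
import Cfsg.Agent.H79.LinChar
import Cfsg.Agent.CharBase.Central
import Cfsg.Agent.BG.MetaCop

/-!
# Simplicity of a group of prime degree with a unique character of degree `p`
-/

set_option autoImplicit false
set_option linter.style.haveILetI false
set_option linter.unusedVariables false

open Subgroup MulAction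

namespace Cfsg.Agent.H8S

open Cfsg

open scoped ComplexConjugate commutatorElement

variable {α : Type*} [Fintype α] [DecidableEq α] {p : ℕ} [hp : Fact p.Prime]

theorem sylow_le_normal (hα : Fintype.card α = p) (G : Subgroup (Equiv.Perm α)) [IsPretransitive G α]
    (P : Sylow p G) (K : Subgroup G) [K.Normal] (hK : K ≠ ⊥) : (P : Subgroup G) ≤ K := by
  haveI : IsPreprimitive G α := IsPreprimitive.of_prime_card (by rw [Nat.card_eq_fintype_card, hα]; exact hp.out)
  have htr := H12.normal_isPretransitive K hK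
  obtain ⟨a⟩ : Nonempty α := by rw [← Fintype.card_pos_iff, hα]; exact hp.out.pos
  have h1 : (stabilizer K a).index = p := by
    have := index_stabilizer_of_transitive K a
    rw [Nat.card_eq_fintype_card, hα] at this
    exact this
  have h2 : p ∣ Nat.card K := by
    conv_lhs => rw [← h1]
    exact Subgroup.index_dvd_card _
  obtain ⟨x, hx⟩ := exists_prime_orderOf_dvd_card' p h2
  have hx' : orderOf (x : G) = p := by rw [Subgroup.orderOf_coe, hx]
  have h3 : IsPGroup p (zpowers (x : G)) := by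
    apply IsPGroup.of_card (n := 1)
    rw [Nat.card_zpowers, hx', pow_one]
  obtain ⟨Q, hQ⟩ := h3.exists_le_sylow
  have h4 : (Q : Subgroup G) = zpowers (x : G) := by
    symm
    apply Subgroup.eq_of_le_of_card_ge hQ
    rw [Nat.card_zpowers, hx', (H12.sylow_eq_zpowers hα G Q).1]
  have h5 : (Q : Subgroup G) ≤ K := by
    rw [h4, zpowers_le]
    exact x.2
  obtain ⟨g, hg⟩ := exists_smul_eq G Q P
  rw [← hg]
  intro y hy
  rw [Sylow.coe_subgroup_smul] at hy
  obtain ⟨z, hz, rfl⟩ := hy
  exact (inferInstance : K.Normal).conj_mem z (h5 hz) g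


structure Data {α : Type*} [Fintype α] [DecidableEq α] (p : ℕ) (G : Subgroup (Equiv.Perm α)) (P : Subgroup G)
    (E : Subgroup G) (u : G) (a0 : α) (χ : IrrCharacter G) : Prop where
  hPu : P = zpowers u
  hu : orderOf u = p
  hcent : ∀ g, g * u = u * g → g ∈ P
  cyc : IsCyclic E
  fix : ∀ x ∈ E, x ≠ 1 → ∀ a : α, x • a = a ↔ a = a0
  deg : charDegree (χ : G → ℂ) = p
  uniq : ∀ ψ : IrrCharacter G, charDegree (ψ : G → ℂ) = p → ψ = χ
  real : ∀ g, conj ((χ : G → ℂ) g) = (χ : G → ℂ) g
  van : ∀ g, p ∣ orderOf g → (χ : G → ℂ) g = 0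
  pow : ∀ x ∈ E, x ≠ 1 → ((χ : G → ℂ) x) ^ (Nat.card E) = 1
  simple : IsSimpleGroup G
  nonab : ∃ a b : G, a * b ≠ b * a
  five : 5 ≤ p
  two : 2 ≤ Nat.card E
  cardN : Nat.card (normalizer (P : Set G)) = p * Nat.card E
  dvd : Nat.card E ∣ p - 1

theorem exists_data (hα : Fintype.card α = p) (G : Subgroup (Equiv.Perm α)) [IsPretransitive G α]
    (huniq : ∃! χ : IrrCharacter G, charDegree (χ : G → ℂ) = p) (P : Sylow p G) (E : Subgroup G)
    (hPE : (P : Subgroup G) ⊔ E = Subgroup.normalizer ((P : Subgroup G) : Set G))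
    (hPE' : (P : Subgroup G) ⊓ E = ⊥) (hNE : Nat.card (Subgroup.normalizer (E : Set G)) = 2 * Nat.card E) :
    ∃ (u : G) (a0 : α) (χ : IrrCharacter G), Data p G (P : Subgroup G) E u a0 χ := by
  classical
  have hEN : E ≤ normalizer ((P : Subgroup G) : Set G) := by rw [← hPE]; exact le_sup_right
  obtain ⟨u, a0, hPu, hu, hcent, hcyc, hfix⟩ := setup hα G P E hEN hPE'
  obtain ⟨χ, hχ, huni⟩ := huniq
  have hPc : Nat.card (P : Subgroup G) = p := (H12.sylow_eq_zpowers hα G P).1
  have hcardN : Nat.card (normalizer ((P : Subgroup G) : Set G)) = p * Nat.card E := by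
    rw [← hPE, BG.card_sup_of_inf_eq_bot' hEN hPE', hPc]
  have hdvd : Nat.card E ∣ p - 1 := by
    obtain ⟨d, hd, hd2⟩ := H12.card_normalizer_prime_degree hα G P
    rw [hcardN] at hd2
    rwa [Nat.eq_of_mul_eq_mul_left hp.out.pos hd2]
  have hp0 : 0 < p := hp.out.pos
  have hdeg1 : (χ : G → ℂ) 1 = (p : ℂ) := by rw [H79.irr_one, hχ]
  have hsq : ¬ p ^ 2 ∣ Nat.card G := not_sq_dvd hα G
  have hvan : ∀ g, p ∣ orderOf g → (χ : G → ℂ) g = 0 := by
    intro g hg
    refine Cfsg.Agent.Char.DZ.eq_zero_of_defect_zero p 1 hp.out hsq χ.2 (d := p) hdeg1 (by simp) g hg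
  have hreal : ∀ g, conj ((χ : G → ℂ) g) = (χ : G → ℂ) g := by
    have h1 := huni ⟨fun g => conj ((χ : G → ℂ) g), CharBase.isIrrCharacter_conj χ.2⟩ (by
      apply H79.charDegree_eq
      show conj ((χ : G → ℂ) 1) = _
      rw [hdeg1]; simp)
    intro g
    exact congrFun (congrArg Subtype.val h1) g
  have hpow : ∀ x ∈ E, x ≠ 1 → ((χ : G → ℂ) x) ^ (Nat.card E) = 1 := by
    intro x hx hx1
    obtain ⟨n, ρ, -, hρ, hn, hn0⟩ := H79.irr_exists_rep χ
    rw [hχ] at hn
    subst hn
    haveI := Fintype.ofFinite (P : Subgroup G)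
    have hPx : ∀ v ∈ (P : Subgroup G), x * v * x⁻¹ ∈ (P : Subgroup G) :=
      fun v hv => (Subgroup.mem_normalizer_iff.1 (hEN hx) v).1 hv
    have hPx' : ∀ v ∈ (P : Subgroup G), x⁻¹ * v * x ∈ (P : Subgroup G) := by
      intro v hv
      have := (Subgroup.mem_normalizer_iff.1 (inv_mem (hEN hx)) v).1 hv
      simpa using this
    have hcx : ∀ v ∈ (P : Subgroup G), x * v = v * x → v = 1 := by
      intro v hv hxv
      by_contra hv1
      apply hx1
      have h1 : u ∈ zpowers v := by
        rw [hPu] at hv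
        exact mem_zpowers_of_ne hu ⟨v, hv⟩ (fun h => hv1 (congrArg Subtype.val h))
      obtain ⟨i, rfl⟩ := h1
      have h2 : x ∈ (P : Subgroup G) := hcent x ((show Commute x v from hxv).zpow_right i)
      have h3 : x ∈ (P : Subgroup G) ⊓ E := ⟨h2, hx⟩
      rwa [hPE', Subgroup.mem_bot] at h3
    rw [← hρ]
    refine chi_pow ρ (P : Subgroup G) (by rw [← Nat.card_eq_fintype_card, hPc]) hp0 ?_ x ?_ hPx ?_
    · intro v hv hv1
      rw [hρ]
      apply hvan
      have h1 : orderOf v ∣ p := by
        rw [← hPc]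
        exact Subgroup.orderOf_dvd_natCard _ hv
      rcases (Nat.dvd_prime hp.out).1 h1 with h | h
      · exact absurd (orderOf_eq_one_iff.1 h) hv1
      · rw [h]
    · intro v hv
      obtain ⟨w, hw, hw2⟩ := conj_cover (P : Subgroup G) x hPx' hcx v hv
      rw [← hw2, Representation.char_conj]
    · have h1 : orderOf x ∣ Nat.card E := Subgroup.orderOf_dvd_natCard _ hx
      exact orderOf_dvd_iff_pow_eq_one.1 h1
  have hcardG : p ^ 2 ≤ Nat.card G := by
    haveI := Fintype.ofFinite (IrrCharacter G)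
    rw [← H75.sum_deg_sq (G := G)]
    have h1 := Finset.single_le_sum (f := fun ψ : IrrCharacter G => H75.deg ψ ^ 2) (fun _ _ => Nat.zero_le _)
      (Finset.mem_univ χ)
    have h2 : H75.deg χ = p := by rw [← H75.charDegree_eq_deg, hχ]
    simp only [h2] at h1
    exact h1
  have hlt : Nat.card (normalizer ((P : Subgroup G) : Set G)) < Nat.card G := by
    rw [hcardN]
    have h1 : Nat.card E ≤ p - 1 := Nat.le_of_dvd (by have := hp.out.two_le; omega) hdvd
    calc p * Nat.card E ≤ p * (p - 1) := Nat.mul_le_mul_left _ h1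
      _ < p ^ 2 := by rw [pow_two]; exact Nat.mul_lt_mul_of_pos_left (by omega) hp0
      _ ≤ _ := hcardG
  have hnn : ¬ (P : Subgroup G).Normal := by
    intro h
    rw [Subgroup.normalizer_eq_top_iff.2 h, Subgroup.card_top] at hlt
    exact lt_irrefl _ hlt
  have htwo : 2 ≤ Nat.card E := by
    by_contra h
    have h1 : Nat.card E = 1 := by have := Nat.card_pos (α := E); omega
    have h2 : E = ⊥ := Subgroup.card_eq_one.1 h1
    have h3 : normalizer (E : Set G) = ⊤ := by
      rw [Subgroup.normalizer_eq_top_iff, h2]; infer_instance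
    rw [h3, Subgroup.card_top, h1] at hNE
    have h4 : 2 ^ 2 ≤ p ^ 2 := Nat.pow_le_pow_left hp.out.two_le 2
    omega
  have hp3 : 3 ≤ p := by
    have := Nat.le_of_dvd (by have := hp.out.two_le; omega) hdvd
    omega
  have hfive : 5 ≤ p := by
    by_contra h
    have h1 : p = 3 ∨ p = 4 := by omega
    rcases h1 with rfl | rfl
    · have h2 : Nat.card G ≤ Nat.card (Equiv.Perm α) := Subgroup.card_le_card_group G
      rw [Nat.card_eq_fintype_card (α := Equiv.Perm α), Fintype.card_perm, hα] at h2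
      have h3 : Nat.factorial 3 = 6 := rfl
      rw [h3] at h2
      omega
    · exact absurd hp.out (by norm_num)
  have hnonab : ∃ a b : G, a * b ≠ b * a := by
    by_contra h
    push Not at h
    apply hnn
    constructor
    intro n hn g
    rw [h g n, mul_assoc, mul_inv_cancel, mul_one]
    exact hn
  have hEsup : ∀ K : Subgroup G, K.Normal → K ≠ ⊥ → K ⊔ E = ⊤ := by
    intro K hK hK0
    have h1 := sylow_le_normal hα G P K hK0
    have h2 := P.normalizer_sup_eq_top' h1
    rw [← h2]
    apply le_antisymm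
    · exact sup_le le_sup_right (le_trans hEN le_sup_left)
    · refine sup_le ?_ le_sup_left
      have h3 : normalizer ((P : Subgroup G) : Set G) = (P : Subgroup G) ⊔ E := hPE.symm
      refine le_trans (le_of_eq h3) ?_
      exact sup_le (le_trans h1 le_sup_left) le_sup_right
  have hcomm0 : commutator G ≠ ⊥ := by
    intro h
    obtain ⟨a, b, hab⟩ := hnonab
    apply hab
    have h1 : ⁅a, b⁆ ∈ commutator G := Subgroup.commutator_mem_commutator (mem_top a) (mem_top b)
    rw [h, Subgroup.mem_bot, commutatorElement_eq_one_iff_mul_comm] at h1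
    exact h1
  have hperf : commutator G = ⊤ := by
    by_contra hne
    have h1 := hEsup (commutator G) inferInstance hcomm0
    have h2 : ¬ E ≤ commutator G := by
      intro h
      rw [sup_eq_left.2 h] at h1
      exact hne h1
    obtain ⟨x, hxE, hxC⟩ := SetLike.not_le_iff_exists.1 h2
    obtain ⟨l, hl1, hlx⟩ := H79.exists_linear_ne_one hxC
    have h3 := H76.isIrr_linear_mul (CharBase.irr_isCharacter l) hl1 χ.2
    have h4 := huni ⟨_, h3⟩ (by
      apply H79.charDegree_eq
      show (l : G → ℂ) 1 * (χ : G → ℂ) 1 = _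
      rw [hl1, hdeg1, one_mul])
    have h5 : (l : G → ℂ) x * (χ : G → ℂ) x = (χ : G → ℂ) x := congrFun (congrArg Subtype.val h4) x
    have hx1 : x ≠ 1 := by rintro rfl; exact hxC (one_mem _)
    have h6 : (χ : G → ℂ) x ≠ 0 := by
      intro h
      have h7 := hpow x hxE hx1
      rw [h, zero_pow (by omega)] at h7
      exact zero_ne_one h7
    apply hlx
    exact mul_right_cancel₀ h6 (by rw [h5, one_mul])
  have hsimple : IsSimpleGroup G := by
    haveI : Nontrivial G := by
      obtain ⟨a, b, hab⟩ := hnonab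
      exact ⟨⟨a * b, b * a, hab⟩⟩
    refine ⟨fun K hK => ?_⟩
    by_cases hK0 : K = ⊥
    · exact Or.inl hK0
    right
    have h1 := hEsup K hK hK0
    haveI := hcyc
    have h2 : _root_.commutator G ≤ K := hK.commutator_le_of_self_sup_commutative_eq_top h1 ⟨⟨fun a b => by
      letI := IsCyclic.commGroup (α := E)
      exact mul_comm a b⟩⟩
    rw [hperf] at h2
    exact top_le_iff.1 h2
  exact ⟨u, a0, χ, ⟨hPu, hu, hcent, hcyc, hfix, hχ, huni, hreal, hvan, hpow, hsimple, hnonab, hfive, htwo, hcardN, hdvd⟩⟩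

end Cfsg.Agent.H8S
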