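import Mathlib
import Cfsg.Prelude.Def_Characters
import Cfsg.Agent.H8S.Simple
import Cfsg.Agent.Char.Induced
import Cfsg.Agent.Char.Linear
import Cfsg.Agent.Char.BrauerInduction
import Cfsg.Agent.CharBase.Ortho
import Cfsg.Agent.Frob.Kernel

/-!
# The exceptional real character of degree `p + 1`
-/

set_option autoImplicit false
set_option linter.style.haveILetI false
set_option linter.unusedVariables false
set_option linter.unusedSectionVars false

open Subgroup

namespace Cfsg.Agent.H8S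

open Cfsg

open scoped ComplexConjugate

theorem exists_mu {G : Type*} [Group G] [Finite G] {E : Subgroup G} (hcomm : ∀ x ∈ E, ∀ y ∈ E, x * y = y * x)
    (hodd : Odd (Nat.card E)) {t : G} (htN : t ∈ normalizer (E : Set G)) (htt : t * t = 1) {x0 : G} (hx0 : x0 ∈ E)
    (hne : t * x0 * t⁻¹ ≠ x0) :
    ∃ μ : E →* ℂ, μ ≠ 1 ∧ μ * μ ≠ 1 ∧ (∀ x : E, μ x * conj (μ x) = 1) ∧
      (∀ x y : E, (y : G) = t * x * t⁻¹ → μ y = conj (μ x)) := by
  have ht : ∀ x ∈ E, t * x * t⁻¹ ∈ E := fun x hx => (Subgroup.mem_normalizer_iff.1 htN x).1 hx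
  letI : CommGroup E := { (inferInstance : Group E) with mul_comm := fun a b => Subtype.ext (hcomm a a.2 b b.2) }
  let c : E →* E := MonoidHom.mk' (fun x => ⟨t * x * t⁻¹, ht x x.2⟩) (by
    intro a b
    apply Subtype.ext
    show t * (a * b) * t⁻¹ = (t * a * t⁻¹) * (t * b * t⁻¹)
    group)
  have hcc : ∀ x : E, c (c x) = x := by
    intro x
    apply Subtype.ext
    show t * (t * x * t⁻¹) * t⁻¹ = x
    have h1 : t⁻¹ = t := inv_eq_of_mul_eq_one_left htt
    rw [h1]
    calc t * (t * x * t) * t = (t * t) * x * (t * t) := by group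
      _ = x := by rw [htt, one_mul, mul_one]
  have hne' : c ⟨x0, hx0⟩ * (⟨x0, hx0⟩ : E)⁻¹ ≠ 1 := by
    intro h
    rw [mul_inv_eq_one] at h
    exact hne (congrArg Subtype.val h)
  have : NeZero (Monoid.exponent E) := ⟨Monoid.exponent_ne_zero_of_finite⟩
  obtain ⟨μ0, hμ0⟩ := CommGroup.exists_apply_ne_one_of_hasEnoughRootsOfUnity E ℂ hne'
  let ν : E →* ℂˣ := (μ0.comp c) * μ0⁻¹
  have hν : ∀ x : E, ν x = μ0 (c x) * (μ0 x)⁻¹ := fun x => rfl
  have hνc : ∀ x : E, ν (c x) = (ν x)⁻¹ := by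
    intro x
    rw [hν, hν, hcc, mul_inv, inv_inv, mul_comm]
  have hνne : ν ≠ 1 := by
    intro h
    apply hμ0
    have h1 := DFunLike.congr_fun h ⟨x0, hx0⟩
    rw [hν] at h1
    rw [map_mul, map_inv]
    exact h1
  let μ : E →* ℂ := (Units.coeHom ℂ).comp ν
  have hμ : ∀ x : E, μ x = ((ν x : ℂˣ) : ℂ) := fun x => rfl
  have hpow : ∀ x : E, (ν x) ^ (Nat.card E) = 1 := by
    intro x
    rw [← map_pow, pow_card_eq_one', map_one]
  have hconj : ∀ x : E, conj (μ x) = (μ x)⁻¹ := by
    intro x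
    have h1 : (μ x) ^ (Nat.card E) = 1 := by
      rw [hμ, ← Units.val_pow_eq_pow_val, hpow]; rfl
    have h2 : ‖μ x‖ = 1 := Complex.norm_eq_one_of_pow_eq_one h1 Nat.card_pos.ne'
    rw [Complex.inv_def, Complex.normSq_eq_norm_sq, h2]
    simp
  have hμ0' : ∀ x : E, μ x ≠ 0 := fun x => Units.ne_zero (ν x)
  refine ⟨μ, ?_, ?_, ?_, ?_⟩
  · intro h
    apply hνne
    ext x
    exact DFunLike.congr_fun h x
  · intro h
    apply hνne
    ext x
    have h1 : (ν x) ^ 2 = 1 := by
      have h2 := DFunLike.congr_fun h x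
      apply Units.ext
      rw [Units.val_pow_eq_pow_val, pow_two]
      exact h2
    have h3 : orderOf (ν x) ∣ 1 := by
      have h4 : Nat.Coprime 2 (Nat.card E) := (Nat.coprime_two_left).2 hodd
      rw [← h4.gcd_eq_one]
      exact Nat.dvd_gcd (orderOf_dvd_of_pow_eq_one h1) (orderOf_dvd_of_pow_eq_one (hpow x))
    have h5 := orderOf_eq_one_iff.1 (Nat.dvd_one.1 h3)
    rw [h5]; rfl
  · intro x
    rw [hconj, mul_inv_cancel₀ (hμ0' x)]
  · intro x y hxy
    have h1 : y = c x := Subtype.ext hxy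
    rw [h1, hconj, hμ, hμ, hνc, Units.val_inv_eq_inv_val]

theorem sum_conj_mu {E : Type*} [Group E] [Fintype E] (μ : E →* ℂ) (h : μ ≠ 1) (hu : ∀ x : E, μ x * conj (μ x) = 1) :
    ∑ x : E, conj (μ x) = 0 := by
  rw [← map_sum, sum_hom_units_eq_zero μ h, map_zero]

section
variable {G : Type*} [Group G] [Fintype G]

theorem sum_two (E W : Subgroup G) [DecidablePred (· ∈ E)] [DecidablePred (· ∈ W)] (hEW : E ≤ W)
    (hc : Nat.card W = 2 * Nat.card E) (A B : ℂ) :
    ∑ g : G, (if g ∈ E then A else if g ∈ W then B else 0) = (Nat.card E : ℂ) * (A + B) := by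
  have h1 : ∀ g : G, (if g ∈ E then A else if g ∈ W then B else 0) =
      (if g ∈ E then (A - B) else 0) + (if g ∈ W then B else 0) := by
    intro g
    by_cases hE : g ∈ E
    · rw [if_pos hE, if_pos hE, if_pos (hEW hE)]; ring
    · rw [if_neg hE, if_neg hE, zero_add]
  rw [Finset.sum_congr rfl (fun g _ => h1 g), Finset.sum_add_distrib]
  have h2 : ∀ (K : Subgroup G) [DecidablePred (· ∈ K)] (z : ℂ), ∑ g : G, (if g ∈ K then z else 0) = (Nat.card K : ℂ) * z := by
    intro K _ z
    rw [← Finset.sum_filter, Finset.sum_const, nsmul_eq_mul]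
    congr 2
    rw [Nat.card_eq_fintype_card, Fintype.card_subtype]
  rw [h2, h2, hc]
  push_cast
  ring

theorem exists_lambda {E : Subgroup G} (hcomm : ∀ x ∈ E, ∀ y ∈ E, x * y = y * x)
    (hNE : Nat.card (Subgroup.normalizer (E : Set G)) = 2 * Nat.card E)
    (hTI : ∀ g : G, g ∉ Subgroup.normalizer (E : Set G) → E ⊓ E.map (MulAut.conj g).toMonoidHom = ⊥)
    (hodd : Odd (Nat.card E)) {t : G} (htN : t ∈ normalizer (E : Set G)) (htE : t ∉ E) (htt : t * t = 1) {x0 : G}
    (hx0 : x0 ∈ E) (hne : t * x0 * t⁻¹ ≠ x0) (χ : IrrCharacter G) (hχE : ∀ x ∈ E, x ≠ 1 → (χ : G → ℂ) x = 1)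
    (hreal : ∀ g, conj ((χ : G → ℂ) g) = (χ : G → ℂ) g) {d : ℕ} (hd : (χ : G → ℂ) 1 = d) (hd1 : d ≠ 1) :
    ∃ Λ : G → ℂ, IsIrrCharacter G Λ ∧ Λ 1 = ((d + 1 : ℕ) : ℂ) ∧ ∀ g, conj (Λ g) = Λ g := by
  classical
  obtain ⟨μ, hμ1, hμ2, hμu, hμt⟩ := exists_mu hcomm hodd htN htt hx0 hne
  set W := normalizer (E : Set G) with hW
  have hEW : E ≤ W := Subgroup.le_normalizer
  have htinv : t⁻¹ = t := inv_eq_of_mul_eq_one_left htt
  have ht : ∀ x ∈ E, t * x * t⁻¹ ∈ E := fun x hx => (Subgroup.mem_normalizer_iff.1 htN x).1 hx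
  have hidx : (E.subgroupOf W).index = 2 := by
    have h8 := Subgroup.card_mul_index (E.subgroupOf W)
    rw [Nat.card_congr (Subgroup.subgroupOfEquivOfLe hEW).toEquiv, hNE, mul_comm 2] at h8
    exact Nat.eq_of_mul_eq_mul_left Nat.card_pos h8
  have htg : ∀ g ∈ W, g ∉ E → t * g ∈ E := by
    intro g hg hgE
    have h1 := (Subgroup.mul_mem_iff_of_index_two hidx (a := (⟨t, htN⟩ : W)) (b := ⟨g, hg⟩)).2 (by
      simp only [Subgroup.mem_subgroupOf, htE, hgE])
    exact h1
  set f : E → ℂ := fun x => 1 - μ x with hf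
  have hcE0 : (Nat.card E : ℂ) ≠ 0 := by exact_mod_cast Nat.card_pos.ne'
  have hone : ∑ x : E, (1 : ℂ) = Nat.card E := by
    rw [Finset.sum_const, Finset.card_univ, nsmul_eq_mul, mul_one, Nat.card_eq_fintype_card]
  have hs1 : ∑ x : E, μ x = 0 := sum_hom_units_eq_zero μ hμ1
  have hs2 : ∑ x : E, μ x * μ x = 0 := sum_hom_units_eq_zero (μ * μ) hμ2
  have hs3 : ∑ x : E, conj (μ x) = 0 := sum_conj_mu μ hμ1 hμu
  set θ : G → ℂ := indFun E f with hθ
  have hθcf : IsClassFunction G θ := Char.indFun_isClassFunction E f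
  -- values on `E`
  have hval : ∀ x : E, x ≠ 1 → θ x = 2 - μ x - conj (μ x) := by
    intro x hx
    have hx1 : (x : G) ≠ 1 := fun h => hx (Subtype.ext h)
    have h1 : ∀ g : G, extendByZero E f (g⁻¹ * x * g) =
        if g ∈ E then 1 - μ x else if g ∈ W then 1 - conj (μ x) else 0 := by
      intro g
      split_ifs with hgE hgW
      · have h2 : g⁻¹ * x * g = x := by
          rw [mul_assoc, hcomm x x.2 g hgE, inv_mul_cancel_left]
        rw [h2, Char.extendByZero_of_mem E f x.2]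
      · have h2 := htg g hgW hgE
        set e := t * g with he
        have hge : g = t⁻¹ * e := by rw [he]; group
        have h3 : g⁻¹ * x * g = t * x * t⁻¹ := by
          have h4 : t * (x : G) * t⁻¹ ∈ E := ht x x.2
          calc g⁻¹ * x * g = e⁻¹ * (t * x * t⁻¹) * e := by rw [hge]; group
            _ = e⁻¹ * (e * (t * x * t⁻¹)) := by rw [mul_assoc, hcomm _ h4 e h2]
            _ = _ := by rw [inv_mul_cancel_left]
        rw [h3, Char.extendByZero_of_mem E f (ht x x.2)]
        show 1 - μ _ = _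
        rw [hμt x _ rfl]
      · apply Char.extendByZero_of_notMem
        intro h
        apply hgW
        have h2 : g⁻¹ * x * (g⁻¹)⁻¹ ∈ E := by rw [inv_inv]; exact h
        have h3 : g⁻¹ ∈ W := by
          by_contra hg
          have h4 := hTI g⁻¹ hg
          have h5 : g⁻¹ * x * (g⁻¹)⁻¹ ∈ E ⊓ E.map (MulAut.conj g⁻¹).toMonoidHom := ⟨h2, ⟨x, x.2, rfl⟩⟩
          rw [h4, Subgroup.mem_bot] at h5
          apply hx1
          have h6 : (x : G) = g * (g⁻¹ * x * (g⁻¹)⁻¹) * g⁻¹ := by group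
          rw [h6, h5]; group
        have := inv_mem h3
        rwa [inv_inv] at this
    show (Nat.card E : ℂ)⁻¹ * ∑ g : G, extendByZero E f (g⁻¹ * x * g) = _
    rw [Finset.sum_congr rfl (fun g _ => h1 g), sum_two E W hEW hNE]
    rw [inv_mul_cancel_left₀ hcE0]
    ring
  have hf1 : f 1 = 0 := by
    show 1 - μ 1 = 0
    rw [map_one, sub_self]
  have hθ1 : θ 1 = 0 := by
    rw [hθ, Char.indFun_one_apply, hf1, mul_zero]
  have hvalf : ∀ x : E, f x * conj (θ x) = f x * conj (2 - μ x - conj (μ x)) := by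
    intro x
    by_cases hx : x = 1
    · rw [hx, hf1, zero_mul, zero_mul]
    · rw [hval x hx]
  -- inner products
  have hθθ : classInner θ θ = 3 := by
    rw [hθ, Char.frobenius_reciprocity E f _ hθcf]
    show (Nat.card E : ℂ)⁻¹ * ∑ x : E, f x * conj (θ x) = 3
    have h1 : ∀ x : E, f x * conj (θ x) = 3 * 1 - 3 * μ x - conj (μ x) + μ x * μ x := by
      intro x
      rw [hvalf]
      simp only [hf, map_sub, Complex.conj_conj]
      have h2 : conj (2 : ℂ) = 2 := Complex.conj_ofNat 2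
      rw [h2]
      linear_combination (1 : ℂ) * hμu x
    rw [Finset.sum_congr rfl (fun x _ => h1 x), Finset.sum_add_distrib, Finset.sum_sub_distrib,
      Finset.sum_sub_distrib, ← Finset.mul_sum, ← Finset.mul_sum, hone, hs1, hs2, hs3]
    field_simp
    ring
  have hθ_one : classInner θ (fun _ => 1) = 1 := by
    rw [hθ, Char.frobenius_reciprocity E f _ (fun _ _ => rfl)]
    show (Nat.card E : ℂ)⁻¹ * ∑ x : E, f x * conj 1 = 1
    have h1 : ∀ x : E, f x * conj (1 : ℂ) = 1 - μ x := by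
      intro x
      rw [map_one, mul_one]
    rw [Finset.sum_congr rfl (fun x _ => h1 x), Finset.sum_sub_distrib, hone, hs1, sub_zero, inv_mul_cancel₀ hcE0]
  have hθχ : classInner θ (χ : G → ℂ) = 1 := by
    rw [hθ, Char.frobenius_reciprocity E f _ (CharBase.isClassFunction_of_isCharacter (CharBase.irr_isCharacter χ))]
    show (Nat.card E : ℂ)⁻¹ * ∑ x : E, f x * conj ((χ : G → ℂ) x) = 1
    have h1 : ∀ x : E, f x * conj ((χ : G → ℂ) x) = 1 - μ x := by
      intro x
      by_cases hx : x = 1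
      · rw [hx, hf1, zero_mul, map_one, sub_self]
      · rw [hχE x x.2 (fun h => hx (Subtype.ext h)), map_one, mul_one]
    rw [Finset.sum_congr rfl (fun x _ => h1 x), Finset.sum_sub_distrib, hone, hs1, sub_zero, inv_mul_cancel₀ hcE0]
  have hχχ : classInner (χ : G → ℂ) (χ : G → ℂ) = 1 := CharBase.classInner_irr_self χ
  have h11 : classInner (fun _ : G => (1 : ℂ)) (fun _ => 1) = 1 :=
    CharBase.classInner_irr_self (⟨fun _ => 1, CharBase.isIrrCharacter_one⟩ : IrrCharacter G)
  have hχ1 : classInner (χ : G → ℂ) (fun _ => 1) = 0 := by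
    refine CharBase.classInner_irr_of_ne (χ := χ) (ψ := ⟨fun _ => 1, CharBase.isIrrCharacter_one⟩) ?_
    intro h
    apply hd1
    have h1 : (χ : G → ℂ) 1 = 1 := by rw [h]
    rw [hd] at h1
    exact_mod_cast h1
  have h1χ : classInner (fun _ : G => (1 : ℂ)) (χ : G → ℂ) = 0 := by
    rw [← CharBase.classInner_conj_symm, hχ1, map_zero]
  have h_oneθ : classInner (fun _ : G => (1 : ℂ)) θ = 1 := by
    rw [← CharBase.classInner_conj_symm, hθ_one, map_one]
  have hχθ : classInner (χ : G → ℂ) θ = 1 := by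
    rw [← CharBase.classInner_conj_symm, hθχ, map_one]
  -- reality of `θ`
  have hθr : ∀ g, conj (θ g) = θ g := by
    intro g
    have h1 : ∀ z : G, conj (extendByZero E f z) = extendByZero E f (t * z * t⁻¹) := by
      intro z
      by_cases hz : z ∈ E
      · rw [Char.extendByZero_of_mem E f hz, Char.extendByZero_of_mem E f (ht z hz)]
        simp only [hf, map_sub, map_one]
        rw [hμt ⟨z, hz⟩ ⟨t * z * t⁻¹, ht z hz⟩ rfl]
      · have hz' : t * z * t⁻¹ ∉ E := by
          intro h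
          apply hz
          exact (Subgroup.mem_normalizer_iff.1 htN z).2 h
        rw [Char.extendByZero_of_notMem E f hz, Char.extendByZero_of_notMem E f hz', map_zero]
    show conj ((Nat.card E : ℂ)⁻¹ * ∑ x : G, extendByZero E f (x⁻¹ * g * x)) = _
    rw [map_mul, map_inv₀, Complex.conj_natCast, map_sum]
    show _ = (Nat.card E : ℂ)⁻¹ * ∑ x : G, extendByZero E f (x⁻¹ * g * x)
    congr 1
    refine Fintype.sum_equiv (Equiv.mulRight t⁻¹) _ _ (fun x => ?_)
    rw [h1]
    congr 1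
    show t * (x⁻¹ * g * x) * t⁻¹ = (x * t⁻¹)⁻¹ * g * (x * t⁻¹)
    group
  have hgen : IsGeneralizedCharacter G θ := by
    apply Char.BI.isGeneralizedCharacter_indFun
    refine ⟨fun _ => 1, μ, ?_, ?_, ?_⟩
    · exact CharBase.isCharacter_of_isIrr CharBase.isIrrCharacter_one
    · exact CharBase.isCharacter_of_isIrr (Char.isIrrCharacter_of_hom μ)
    · rfl
  refine ⟨(fun _ => 1) + (χ : G → ℂ) - θ, ?_, ?_, ?_⟩
  · apply Frob.isIrrCharacter_of_norm_one (n := d + 1)
    · rw [sub_eq_add_neg]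
      apply Char.BI.isGeneralizedCharacter_add
      · apply Char.BI.isGeneralizedCharacter_add
        · exact Char.BI.isGeneralizedCharacter_of_isCharacter (CharBase.isCharacter_of_isIrr CharBase.isIrrCharacter_one)
        · exact Char.BI.isGeneralizedCharacter_of_isCharacter (CharBase.irr_isCharacter χ)
      · exact Char.BI.isGeneralizedCharacter_neg hgen
    · rw [CharBase.classInner_sub_left, CharBase.classInner_sub_right, CharBase.classInner_sub_right,
        CharBase.classInner_add_left, CharBase.classInner_add_right, CharBase.classInner_add_right,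
        CharBase.classInner_add_left, CharBase.classInner_add_right,
        hθθ, hθ_one, hθχ, hχχ, h11, hχ1, h1χ, h_oneθ, hχθ]
      norm_num
    · simp only [Pi.sub_apply, Pi.add_apply, hd, hθ1]
      push_cast; ring
  · simp only [Pi.sub_apply, Pi.add_apply, hd, hθ1]
    push_cast; ring
  · intro g
    simp only [Pi.sub_apply, Pi.add_apply, map_sub, map_add, map_one, hreal, hθr]

end

end Cfsg.Agent.H8S
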