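import Mathlib
import Cfsg.Agent.H8S.Jord
import Cfsg.Agent.H79.ModJ

/-!
# A simple modular representation has one non-free Jordan block
-/

set_option autoImplicit false
set_option linter.style.haveILetI false

open Module Subgroup

namespace Cfsg.Agent.H8S

open Cfsg.Agent.H79.MR

universe u v w

section lin

variable {k : Type v} [Field k] {V : Type w} [AddCommGroup V] [Module k V] [FiniteDimensional k V]

theorem rk_step (D : Module.End k V) (i : ℕ) :
    finrank k (LinearMap.range (D ^ i)) = finrank k (LinearMap.range (D ^ (i + 1))) +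
      finrank k (LinearMap.ker D ⊓ LinearMap.range (D ^ i) : Submodule k V) := by
  set f : LinearMap.range (D ^ i) →ₗ[k] V := D.domRestrict (LinearMap.range (D ^ i)) with hf
  have h1 := LinearMap.finrank_range_add_finrank_ker f
  have h2 : LinearMap.range f = LinearMap.range (D ^ (i + 1)) := by
    ext x
    constructor
    · rintro ⟨⟨_, ⟨v, rfl⟩⟩, rfl⟩
      exact ⟨v, by rw [pow_succ']; rfl⟩
    · rintro ⟨v, rfl⟩
      exact ⟨⟨(D ^ i) v, ⟨v, rfl⟩⟩, by rw [pow_succ']; rfl⟩
  have h3 : finrank k (LinearMap.ker f) = finrank k (LinearMap.ker D ⊓ LinearMap.range (D ^ i) : Submodule k V) := by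
    have h4 : (LinearMap.ker f).map (LinearMap.range (D ^ i)).subtype = LinearMap.ker D ⊓ LinearMap.range (D ^ i) := by
      ext x
      constructor
      · rintro ⟨⟨y, hy⟩, hy2, rfl⟩
        exact ⟨hy2, hy⟩
      · rintro ⟨h5, h6⟩
        exact ⟨⟨x, h6⟩, h5, rfl⟩
    rw [← h4]
    exact (Submodule.finrank_map_subtype_eq _ _).symm
  rw [h2, h3] at h1
  exact h1.symm

theorem weight_vector [IsAlgClosed k] (A : Module.End k V) {e : ℕ} (hA : A ^ e = 1) (he : (e : k) ≠ 0)
    (U : Submodule k V) (hU : U ≠ ⊤) : ∃ z : V, z ∉ U ∧ ∃ c : k, A z = c • z := by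
  by_contra hcon
  push Not at hcon
  apply hU
  have hss : A.IsSemisimple := by
    apply Module.End.isSemisimple_of_squarefree_aeval_eq_zero (p := (Polynomial.X ^ e - Polynomial.C 1 : Polynomial k))
    · exact (Polynomial.separable_X_pow_sub_C (1 : k) he one_ne_zero).squarefree
    · rw [map_sub, map_pow, Polynomial.aeval_X, Polynomial.aeval_C, map_one, hA, sub_self]
  have hfs : A.IsFinitelySemisimple := Module.End.isFinitelySemisimple_iff_isSemisimple.mpr hss
  have h1 := Module.End.iSup_maxGenEigenspace_eq_top A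
  rw [eq_top_iff, ← h1, iSup_le_iff]
  intro μ
  rw [hfs.maxGenEigenspace_eq_eigenspace]
  intro x hx
  by_contra hxU
  exact hcon x hxU μ (Module.End.mem_eigenspace_iff.1 hx)

/-- the rank one like endomorphism attached to a Jordan block -/
theorem block_end (D : Module.End k V) {l : ℕ} (hl : 1 ≤ l) (z' : V) (hz' : (D ^ l) z' = 0)
    (φ : Module.Dual k V) (hφ : ∀ x, φ ((D ^ l) x) = 0) :
    ∃ f : Module.End k V, D * f = f * D ∧ LinearMap.trace k V f = (l : k) * φ ((D ^ (l - 1)) z') ∧
      ∀ v, D v = 0 → f v = φ v • (D ^ (l - 1)) z' := by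
  classical
  obtain ⟨m, rfl⟩ : ∃ m, l = m + 1 := ⟨l - 1, by omega⟩
  rw [Nat.add_sub_cancel]
  let f : Module.End k V := ∑ i ∈ Finset.range (m + 1), (φ ∘ₗ (D ^ i)).smulRight ((D ^ (m - i)) z')
  have hf : ∀ w, f w = ∑ i ∈ Finset.range (m + 1), φ ((D ^ i) w) • (D ^ (m - i)) z' := by
    intro w
    show (∑ i ∈ Finset.range (m + 1), (φ ∘ₗ (D ^ i)).smulRight ((D ^ (m - i)) z')) w = _
    rw [LinearMap.sum_apply]
    rfl
  refine ⟨f, ?_, ?_, ?_⟩
  · refine LinearMap.ext (fun w => ?_)
    show D (f w) = f (D w)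
    rw [hf, hf, map_sum, Finset.sum_range_succ', Finset.sum_range_succ]
    have h1 : D (φ ((D ^ 0) w) • (D ^ (m - 0)) z') = 0 := by
      rw [map_smul]
      have h2 : D ((D ^ (m - 0)) z') = (D ^ (m + 1)) z' := by rw [Nat.sub_zero, pow_succ']; rfl
      rw [h2, hz', smul_zero]
    have h3 : φ ((D ^ m) (D w)) • (D ^ (m - m)) z' = 0 := by
      have h2 : (D ^ m) (D w) = (D ^ (m + 1)) w := by rw [pow_succ]; rfl
      rw [h2, hφ, zero_smul]
    rw [h1, h3, add_zero, add_zero]
    refine Finset.sum_congr rfl (fun i hi => ?_)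
    have him := Finset.mem_range.mp hi
    rw [map_smul]
    have h4 : D ((D ^ (m - (i + 1))) z') = (D ^ (m - i)) z' := by
      have h6 : m - i = (m - (i + 1)) + 1 := by omega
      rw [h6, pow_succ']; rfl
    have h5 : (D ^ i) (D w) = (D ^ (i + 1)) w := by rw [pow_succ]; rfl
    rw [h4, h5]
  · show LinearMap.trace k V (∑ i ∈ Finset.range (m + 1), (φ ∘ₗ (D ^ i)).smulRight ((D ^ (m - i)) z')) = _
    rw [map_sum]
    have h1 : ∀ i ∈ Finset.range (m + 1), LinearMap.trace k V ((φ ∘ₗ (D ^ i)).smulRight ((D ^ (m - i)) z')) =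
        φ ((D ^ m) z') := by
      intro i hi
      have him := Finset.mem_range.mp hi
      rw [LinearMap.trace_smulRight]
      show φ ((D ^ i) ((D ^ (m - i)) z')) = _
      have h2 : (D ^ i) ((D ^ (m - i)) z') = (D ^ m) z' := by
        have h3 : D ^ m = D ^ i * D ^ (m - i) := by rw [← pow_add]; congr 1; omega
        rw [h3]; rfl
      rw [h2]
    rw [Finset.sum_congr rfl h1, Finset.sum_const, Finset.card_range, nsmul_eq_mul]
  · intro v hv
    rw [hf, Finset.sum_range_succ']
    have h1 : ∑ i ∈ Finset.range m, φ ((D ^ (i + 1)) v) • (D ^ (m - (i + 1))) z' = 0 := by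
      apply Finset.sum_eq_zero
      intro i _
      have h2 : (D ^ (i + 1)) v = 0 := by
        rw [pow_succ]
        show (D ^ i) (D v) = 0
        rw [hv, map_zero]
      rw [h2, map_zero, zero_smul]
    rw [h1, zero_add, Nat.sub_zero]
    rfl

end lin

section main

variable {G : Type u} [Group G] [Finite G] {p : ℕ} [hp : Fact p.Prime]
  {k : Type v} [Field k] [CharP k p] {V : Type w} [AddCommGroup V] [Module k V] [FiniteDimensional k V]

/-- A simple module of dimension prime to `p` has exactly one non-free Jordan block. -/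
theorem jordan_line [IsAlgClosed k] (ρ : G →* Module.End k V) {u : G} (hu : orderOf u = p)
    (hsq : ¬ p ^ 2 ∣ Nat.card G)
    (hSchur : ∀ a : Module.End k V, (∀ g : G, ρ g * a = a * ρ g) → ∃ c : k, a = c • 1)
    (hdim : (finrank k V : k) ≠ 0) (g0 : G) (hg0 : g0 ∈ normalizer ((zpowers u : Subgroup G) : Set G))
    (hgen : ∀ n ∈ normalizer ((zpowers u : Subgroup G) : Set G), ∃ i : ℕ, ∃ x ∈ zpowers u, n = g0 ^ i * x)
    {e : ℕ} (he : (e : k) ≠ 0) (hge : g0 ^ e ∈ zpowers u) :
    ∃ (l r : ℕ) (z : V) (c0 : k), 1 ≤ l ∧ l < p ∧ finrank k V = p * r + l ∧ ρ u z = z ∧ ρ g0 z = c0 • z ∧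
      (∀ y, z ≠ ((ρ u - 1) ^ l) y) ∧ (∃ z', z = ((ρ u - 1) ^ (l - 1)) z') ∧
      (∀ v, ρ u v = v → ∃ (c : k) (y : V), v = c • z + ((ρ u - 1) ^ (p - 1)) y) := by
  classical
  set D := ρ u - 1 with hD
  have hDp : D ^ p = 0 := sub_one_pow_p ρ (by rw [← hu]; exact pow_orderOf_eq_one u)
  have hker : ∀ v, D v = 0 ↔ ρ u v = v := by
    intro v
    show ρ u v - v = 0 ↔ _
    rw [sub_eq_zero]
  have hmono : ∀ i j : ℕ, i ≤ j → LinearMap.range (D ^ j) ≤ LinearMap.range (D ^ i) := by
    rintro i j hij _ ⟨v, rfl⟩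
    obtain ⟨r, rfl⟩ := Nat.exists_eq_add_of_le hij
    exact ⟨(D ^ r) v, by rw [pow_add]; rfl⟩
  -- the kernel is not zero
  have hV0 : finrank k V ≠ 0 := by
    intro h0
    exact hdim (by rw [h0]; simp)
  have hnt : Nontrivial V := Module.nontrivial_of_finrank_pos (Nat.pos_of_ne_zero hV0)
  have hkne : LinearMap.ker D ≠ ⊥ := by
    intro h
    have h1 : Function.Injective D := LinearMap.ker_eq_bot.1 h
    have h2 : ∀ m : ℕ, Function.Injective (D ^ m : Module.End k V) := by
      intro m
      induction m with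
      | zero => intro x y hxy; exact hxy
      | succ m ih =>
        rw [pow_succ']
        exact h1.comp ih
    have h3 := h2 p
    rw [hDp] at h3
    obtain ⟨x, hx⟩ := exists_ne (0 : V)
    exact hx (h3 rfl)
  have hex : ∃ l, ¬ LinearMap.ker D ≤ LinearMap.range (D ^ l) := by
    refine ⟨p, fun h => hkne ?_⟩
    rw [hDp, LinearMap.range_zero] at h
    exact le_bot_iff.1 h
  set l := Nat.find hex with hl
  have hl1 : ¬ LinearMap.ker D ≤ LinearMap.range (D ^ l) := Nat.find_spec hex
  have hl2 : ∀ i < l, LinearMap.ker D ≤ LinearMap.range (D ^ i) := by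
    intro i hi
    have := Nat.find_min hex hi
    rwa [not_not] at this
  have hl0 : 1 ≤ l := by
    rcases Nat.eq_zero_or_pos l with h | h
    · exfalso
      apply hl1
      rw [h, pow_zero]
      intro x _
      exact ⟨x, rfl⟩
    · exact h
  set K := finrank k (LinearMap.ker D) with hK
  have hdimA : ∀ i ≤ l, finrank k V = i * K + finrank k (LinearMap.range (D ^ i)) := by
    intro i
    induction i with
    | zero =>
      intro _
      have h1 : LinearMap.range (D ^ 0) = ⊤ := by
        rw [pow_zero]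
        exact LinearMap.range_eq_top.2 (fun x => ⟨x, rfl⟩)
      rw [h1, finrank_top]
      ring
    | succ i ih =>
      intro hi
      rw [ih (by omega), rk_step D i, inf_eq_left.2 (hl2 i (by omega))]
      ring
  have hlp : l < p := by
    by_contra hcon
    push Not at hcon
    apply hdim
    have h1 := hdimA p hcon
    have h2 : LinearMap.range (D ^ p) = ⊥ := by rw [hDp, LinearMap.range_zero]
    rw [h2, finrank_bot, add_zero] at h1
    rw [h1]
    push_cast
    rw [CharP.cast_eq_zero, zero_mul]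
  -- the action on the kernel
  set K0 := LinearMap.ker D with hK0
  have hPfix : ∀ v, ρ u v = v → ∀ x ∈ zpowers u, ρ x v = v := by
    intro v hv x hx
    let H : Subgroup G :=
      { carrier := {x | ρ x v = v}
        mul_mem' := by
          intro a b ha hb
          show ρ (a * b) v = v
          rw [map_mul]
          show ρ a (ρ b v) = v
          rw [hb, ha]
        one_mem' := by show ρ 1 v = v; rw [map_one]; rfl
        inv_mem' := by
          intro a ha
          show ρ a⁻¹ v = v
          have h2 : (ρ a⁻¹ * ρ a) v = v := by rw [← map_mul, inv_mul_cancel, map_one]; rfl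
          have h3 : ρ a⁻¹ (ρ a v) = v := h2
          rwa [ha] at h3 }
    have h1 : zpowers u ≤ H := by rw [zpowers_le]; exact hv
    exact h1 hx
  have hNker : ∀ n ∈ normalizer ((zpowers u : Subgroup G) : Set G), ∀ v, ρ u v = v → ρ u (ρ n v) = ρ n v := by
    intro n hn v hv
    have h3 : u * n = n * (n⁻¹ * u * n) := by group
    have h4 : n⁻¹ * u * n ∈ zpowers u := (Subgroup.mem_normalizer_iff''.1 hn u).1 (mem_zpowers u)
    show (ρ u * ρ n) v = _
    rw [← map_mul, h3, map_mul]
    show ρ n (ρ (n⁻¹ * u * n) v) = _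
    rw [hPfix v hv _ h4]
  have hmaps : ∀ x ∈ K0, ρ g0 x ∈ K0 := by
    intro x hx
    rw [hK0, LinearMap.mem_ker, hker] at hx ⊢
    exact hNker g0 hg0 x hx
  let A : Module.End k K0 := (ρ g0).restrict hmaps
  have hApow : ∀ (m : ℕ) (x : K0), (((A ^ m) x : K0) : V) = ρ (g0 ^ m) x := by
    intro m
    induction m with
    | zero => intro x; rw [pow_zero, pow_zero, map_one]; rfl
    | succ m ih =>
      intro x
      rw [pow_succ', pow_succ', map_mul]
      show ρ g0 (((A ^ m) x : K0) : V) = ρ g0 (ρ (g0 ^ m) x)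
      rw [ih]
  have hAe : A ^ e = 1 := by
    refine LinearMap.ext (fun x => Subtype.ext ?_)
    rw [hApow]
    have h1 : ρ u (x : V) = x := (hker _).1 (LinearMap.mem_ker.1 x.2)
    exact hPfix _ h1 _ hge
  obtain ⟨⟨z, hzK⟩, hzU, c0, hc0⟩ := weight_vector A hAe he ((LinearMap.range (D ^ l)).comap K0.subtype) (by
    intro h
    apply hl1
    intro x hx
    have h1 : (⟨x, hx⟩ : K0) ∈ (LinearMap.range (D ^ l)).comap K0.subtype := by rw [h]; trivial
    exact h1)
  have hzl : z ∉ LinearMap.range (D ^ l) := hzU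
  have hzu : ρ u z = z := (hker z).1 (LinearMap.mem_ker.1 hzK)
  have hg0z : ρ g0 z = c0 • z := congrArg Subtype.val hc0
  obtain ⟨z', hz'⟩ := hl2 (l - 1) (by omega) hzK
  have hz'l : (D ^ l) z' = 0 := by
    have h1 : D ^ l = D * D ^ (l - 1) := by rw [← pow_succ', Nat.sub_add_cancel hl0]
    rw [h1]
    show D ((D ^ (l - 1)) z') = 0
    rw [hz']
    exact LinearMap.mem_ker.1 hzK
  obtain ⟨φ, hφ1, hφ2⟩ := (LinearMap.range (D ^ l)).exists_dual_map_eq_bot_of_notMem hzl inferInstance
  have hφl : ∀ x, φ ((D ^ l) x) = 0 := by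
    intro x
    have h1 : φ ((D ^ l) x) ∈ (LinearMap.range (D ^ l)).map φ := ⟨_, ⟨x, rfl⟩, rfl⟩
    rw [hφ2] at h1
    exact (Submodule.mem_bot k).1 h1
  obtain ⟨f, hfD, hftr, hfv⟩ := block_end D hl0 z' hz'l φ hφl
  have hfu : ρ u * f = f * ρ u := by
    have h1 : ρ u = D + 1 := by rw [hD]; abel
    rw [h1, add_mul, mul_add, hfD, one_mul, mul_one]
  have hlk : (l : k) ≠ 0 := by
    intro h
    rw [CharP.cast_eq_zero_iff k p] at h
    exact absurd (Nat.le_of_dvd hl0 h) (by omega)
  have hfin := spanned ρ hu hsq hSchur f hfu (by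
      rw [hftr, hz']
      exact mul_ne_zero hlk hφ1) z (by
      intro n hn
      obtain ⟨i, x, hx, rfl⟩ := hgen n hn
      refine ⟨c0 ^ i, ?_⟩
      rw [map_mul]
      show ρ (g0 ^ i) (ρ x z) = _
      rw [hPfix z hzu x hx]
      have h1 : ∀ i : ℕ, ρ (g0 ^ i) z = c0 ^ i • z := by
        intro i
        induction i with
        | zero => rw [pow_zero, pow_zero, map_one, one_smul]; rfl
        | succ i ih =>
          rw [pow_succ', map_mul]
          show ρ g0 (ρ (g0 ^ i) z) = _
          rw [ih, map_smul, hg0z, smul_smul, pow_succ]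
      exact h1 i) (by
      intro v hv
      refine ⟨φ v, ?_⟩
      rw [hfv v ((hker v).2 hv), hz'])
  -- the dimension
  set R := finrank k (LinearMap.range (D ^ (p - 1))) with hR
  have hz0 : z ∉ LinearMap.range (D ^ (p - 1)) := fun h => hzl (hmono l (p - 1) (by omega) h)
  have hRker : LinearMap.range (D ^ (p - 1)) ≤ LinearMap.ker D := by
    rintro _ ⟨v, rfl⟩
    rw [LinearMap.mem_ker]
    have h1 : D ^ p = D * D ^ (p - 1) := by rw [← pow_succ', Nat.sub_add_cancel hp.out.one_le]
    have h2 : (D * D ^ (p - 1)) v = 0 := by rw [← h1, hDp]; rfl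
    exact h2
  have hinf : ∀ i, l ≤ i → i ≤ p - 1 → LinearMap.ker D ⊓ LinearMap.range (D ^ i) = LinearMap.range (D ^ (p - 1)) := by
    intro i hi1 hi2
    apply le_antisymm
    · rintro x ⟨hx1, hx2⟩
      obtain ⟨c, y, hcy⟩ := hfin x ((hker x).1 (LinearMap.mem_ker.1 hx1))
      have h1 : c • z ∈ LinearMap.range (D ^ l) := by
        have h2 : c • z = x - (D ^ (p - 1)) y := by rw [hcy]; abel
        rw [h2]
        exact Submodule.sub_mem _ (hmono l i hi1 hx2) (hmono l (p - 1) (by omega) ⟨y, rfl⟩)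
      have h2 : c = 0 := by
        by_contra hc
        apply hzl
        have h3 := Submodule.smul_mem (LinearMap.range (D ^ l)) c⁻¹ h1
        rwa [smul_smul, inv_mul_cancel₀ hc, one_smul] at h3
      rw [hcy, h2, zero_smul, zero_add]
      exact ⟨y, rfl⟩
    · exact le_inf hRker (hmono i (p - 1) hi2)
  have hdimB : ∀ j, l + j ≤ p → finrank k (LinearMap.range (D ^ l)) = j * R + finrank k (LinearMap.range (D ^ (l + j))) := by
    intro j
    induction j with
    | zero => intro _; rw [add_zero]; ring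
    | succ j ih =>
      intro hj
      rw [ih (by omega), rk_step D (l + j), hinf (l + j) (by omega) (by omega), ← hR,
        show l + (j + 1) = l + j + 1 from rfl]
      ring
  have hKR : K = R + 1 := by
    have h1 : LinearMap.ker D = Submodule.span k {z} ⊔ LinearMap.range (D ^ (p - 1)) := by
      apply le_antisymm
      · intro x hx
        obtain ⟨c, y, hcy⟩ := hfin x ((hker x).1 (LinearMap.mem_ker.1 hx))
        rw [hcy]
        exact Submodule.add_mem_sup (Submodule.smul_mem _ _ (Submodule.mem_span_singleton_self z)) ⟨y, rfl⟩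
      · rw [sup_le_iff, Submodule.span_singleton_le_iff_mem]
        exact ⟨hzK, hRker⟩
    have h2 : Submodule.span k {z} ⊓ LinearMap.range (D ^ (p - 1)) = ⊥ := by
      rw [eq_bot_iff]
      rintro x ⟨hx1, hx2⟩
      obtain ⟨c, rfl⟩ := Submodule.mem_span_singleton.1 hx1
      have h3 : c = 0 := by
        by_contra hc
        apply hz0
        have h3 := Submodule.smul_mem (LinearMap.range (D ^ (p - 1))) c⁻¹ hx2
        rwa [smul_smul, inv_mul_cancel₀ hc, one_smul] at h3
      rw [h3, zero_smul]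
      exact Submodule.zero_mem _
    have hz00 : z ≠ 0 := by
      rintro rfl
      exact hz0 (Submodule.zero_mem _)
    have h3 := Submodule.finrank_sup_add_finrank_inf_eq (Submodule.span k {z}) (LinearMap.range (D ^ (p - 1)))
    rw [h2, finrank_bot, add_zero, finrank_span_singleton hz00, ← h1] at h3
    rw [hK, h3, hR]
    ring
  refine ⟨l, R, z, c0, hl0, hlp, ?_, hzu, hg0z, fun y h => hzl ⟨y, h.symm⟩, ⟨z', hz'.symm⟩, hfin⟩
  have h1 := hdimA l le_rfl
  have h2 := hdimB (p - l) (by omega)
  rw [Nat.add_sub_cancel' hlp.le, hDp, LinearMap.range_zero, finrank_bot, add_zero] at h2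
  rw [h1, h2, hKR]
  have h3 : l + (p - l) = p := Nat.add_sub_cancel' hlp.le
  nlinarith [h3]

end main

end Cfsg.Agent.H8S
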