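import Mathlib
import Cfsg.Agent.H8S.JordB
import Cfsg.Agent.H79.ModP

/-!
# Excluding simple modules of dimension `p + 1` and `(p + 1) / 2`
-/

set_option autoImplicit false
set_option linter.style.haveILetI false

open Module Subgroup Polynomial

namespace Cfsg.Agent.H8S

open Cfsg.Agent.H79.MR

universe u v w

section main

variable {G : Type u} [Group G] {p : ℕ} [hp : Fact p.Prime]
  {k : Type v} [Field k] [CharP k p] {V : Type w} [AddCommGroup V] [Module k V] [FiniteDimensional k V]

omit [CharP k p] in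
theorem schur_of_irr [IsAlgClosed k] [Nontrivial V] (ρ : G →* Module.End k V)
    (hirr : ∀ W : Submodule k V, (∀ g, ∀ w ∈ W, ρ g w ∈ W) → W = ⊥ ∨ W = ⊤)
    (a : Module.End k V) (ha : ∀ g : G, ρ g * a = a * ρ g) : ∃ c : k, a = c • 1 := by
  obtain ⟨c, hc⟩ := Module.End.exists_eigenvalue a
  refine ⟨c, ?_⟩
  rcases hirr (Module.End.eigenspace a c) (by
    intro g w hw
    rw [Module.End.mem_eigenspace_iff] at hw ⊢
    have h1 : a (ρ g w) = (a * ρ g) w := rfl
    rw [h1, ← ha]
    show ρ g (a w) = _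
    rw [hw, map_smul]) with h | h
  · exact absurd h hc
  · refine LinearMap.ext (fun w => ?_)
    have h1 : w ∈ Module.End.eigenspace a c := by rw [h]; trivial
    rw [Module.End.mem_eigenspace_iff] at h1
    rw [h1]; rfl

variable [Finite G]

theorem zpowers_fix (ρ : G →* Module.End k V) {u : G} (v : V) (hv : ρ u v = v) : ∀ x ∈ zpowers u, ρ x v = v := by
  intro x hx
  let H : Subgroup G :=
    { carrier := {x | ρ x v = v}
      mul_mem' := by
        intro a b ha hb
        show ρ (a * b) v = v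
        rw [map_mul]
        show ρ a (ρ b v) = v
        rw [hb, ha]
      one_mem' := by show ρ 1 v = v; rw [map_one]; rfl
      inv_mem' := by
        intro a ha
        show ρ a⁻¹ v = v
        have h2 : (ρ a⁻¹ * ρ a) v = v := by rw [← map_mul, inv_mul_cancel, map_one]; rfl
        have h3 : ρ a⁻¹ (ρ a v) = v := h2
        rwa [ha] at h3 }
  have h1 : zpowers u ≤ H := by rw [zpowers_le]; exact hv
  exact h1 hx

theorem no_form [IsAlgClosed k] (ρ : G →* Module.End k V) {u : G} (hu : orderOf u = p)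
    (hsq : ¬ p ^ 2 ∣ Nat.card G)
    (hirr : ∀ W : Submodule k V, (∀ g, ∀ w ∈ W, ρ g w ∈ W) → W = ⊥ ∨ W = ⊤)
    (hV : finrank k V = p + 1) (g0 : G) (hg0 : g0 ∈ normalizer ((zpowers u : Subgroup G) : Set G))
    (hgen : ∀ n ∈ normalizer ((zpowers u : Subgroup G) : Set G), ∃ i : ℕ, ∃ x ∈ zpowers u, n = g0 ^ i * x)
    {e : ℕ} (heodd : Odd e) (he : (e : k) ≠ 0) (hge : g0 ^ e ∈ zpowers u)
    (b : V →ₗ[k] V →ₗ[k] k) (hb : ∀ g x y, b (ρ g x) (ρ g y) = b x y) (hb0 : b ≠ 0)
    (hnf : ∀ w, (∀ g, ρ g w = w) → w = 0) : False := by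
  classical
  have hnt : Nontrivial V := Module.nontrivial_of_finrank_pos (R := k) (by omega)
  obtain ⟨l, r, z, c0, hl1, hlp, hlr, hzu, hgz, hzl, -, hfin⟩ := jordan_line ρ hu hsq
    (schur_of_irr ρ hirr) (by rw [hV]; push_cast; rw [CharP.cast_eq_zero, zero_add]; exact one_ne_zero)
    g0 hg0 hgen he hge
  -- the block has size one
  have hl : l = 1 := by
    rw [hV] at hlr
    have h1 : (p + 1) % p = (p * r + l) % p := by rw [hlr]
    rw [Nat.add_mod_left, Nat.mul_add_mod, Nat.mod_eq_of_lt hlp, Nat.mod_eq_of_lt hp.out.one_lt] at h1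
    exact h1.symm
  subst hl
  rw [pow_one] at hzl
  -- the form is nondegenerate
  have hinj : Function.Injective b := by
    rw [← LinearMap.ker_eq_bot]
    rcases hirr (LinearMap.ker b) (by
      intro g w hw
      rw [LinearMap.mem_ker] at hw ⊢
      refine LinearMap.ext (fun x => ?_)
      have h1 : x = ρ g (ρ g⁻¹ x) := by
        show x = (ρ g * ρ g⁻¹) x
        rw [← map_mul, mul_inv_cancel, map_one]; rfl
      rw [h1, hb, hw]
      rfl) with h | h
    · exact h
    · exfalso
      apply hb0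
      exact LinearMap.ker_eq_top.1 h
  have hsurj : Function.Surjective b := by
    have h1 : finrank k V = finrank k (Module.Dual k V) := Subspace.dual_finrank_eq.symm
    exact (LinearMap.injective_iff_surjective_of_finrank_eq_finrank h1).1 hinj
  have hzr : z ∉ LinearMap.range (ρ u - 1) := by
    rintro ⟨y, hy⟩
    exact hzl y hy.symm
  obtain ⟨φ, hφ1, hφ2⟩ := (LinearMap.range (ρ u - 1)).exists_dual_map_eq_bot_of_notMem hzr inferInstance
  have hφl : ∀ x, φ ((ρ u - 1) x) = 0 := by
    intro x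
    have h1 : φ ((ρ u - 1) x) ∈ (LinearMap.range (ρ u - 1)).map φ := ⟨_, ⟨x, rfl⟩, rfl⟩
    rw [hφ2] at h1
    exact (Submodule.mem_bot k).1 h1
  obtain ⟨w, hw⟩ := hsurj φ
  have hwu : ρ u w = w := by
    apply hinj
    refine LinearMap.ext (fun x => ?_)
    have h1 : x = ρ u (ρ u⁻¹ x) := by
      show x = (ρ u * ρ u⁻¹) x
      rw [← map_mul, mul_inv_cancel, map_one]; rfl
    rw [h1, hb, ← h1]
    have h2 : b w ((ρ u - 1) (ρ u⁻¹ x)) = 0 := by rw [hw]; exact hφl _
    have h3 : (ρ u - 1) (ρ u⁻¹ x) = x - ρ u⁻¹ x := by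
      show ρ u (ρ u⁻¹ x) - ρ u⁻¹ x = _
      rw [← h1]
    rw [h3, map_sub, sub_eq_zero] at h2
    exact h2.symm
  obtain ⟨c, y, hcy⟩ := hfin w hwu
  have hort : ∀ x, b ((ρ u - 1) x) z = 0 := by
    intro x
    have h1 : (ρ u - 1) x = ρ u x - x := rfl
    rw [h1, map_sub, LinearMap.sub_apply, sub_eq_zero]
    conv_lhs => rw [← hzu]
    exact hb u x z
  have hzz : b z z ≠ 0 := by
    intro h0
    apply hφ1
    rw [← hw, hcy, map_add, map_smul, LinearMap.add_apply, LinearMap.smul_apply, h0, smul_zero, zero_add]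
    obtain ⟨q, hq⟩ : ∃ q, p - 1 = q + 1 := ⟨p - 2, by have := hp.out.two_le; omega⟩
    rw [hq, pow_succ']
    exact hort _
  have hc2 : c0 * c0 = 1 := by
    have h1 := hb g0 z z
    rw [hgz, map_smul, map_smul, LinearMap.smul_apply, smul_eq_mul, smul_eq_mul, ← mul_assoc] at h1
    exact mul_right_cancel₀ hzz (h1.trans (one_mul _).symm)
  have hpow : ∀ i : ℕ, ρ (g0 ^ i) z = c0 ^ i • z := by
    intro i
    induction i with
    | zero => rw [pow_zero, pow_zero, map_one, one_smul]; rfl
    | succ i ih =>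
      rw [pow_succ', map_mul]
      show ρ g0 (ρ (g0 ^ i) z) = _
      rw [ih, map_smul, hgz, smul_smul, pow_succ]
  have hz0 : z ≠ 0 := by
    rintro rfl
    exact hzr (Submodule.zero_mem _)
  have hce : c0 ^ e = 1 := by
    have h1 := hpow e
    rw [zpowers_fix ρ z hzu _ hge] at h1
    have h2 : (c0 ^ e - 1) • z = 0 := by rw [sub_smul, one_smul, ← h1, sub_self]
    exact sub_eq_zero.1 ((smul_eq_zero.1 h2).resolve_right hz0)
  have hc1 : c0 = 1 := by
    obtain ⟨m, hm⟩ := heodd
    rw [hm, pow_succ, pow_mul, pow_two, hc2, one_pow, one_mul] at hce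
    exact hce
  obtain ⟨w', hw'0, hw'⟩ := fixed_vector ρ hu hsq z (by
    intro n hn
    obtain ⟨i, x, hx, rfl⟩ := hgen n hn
    rw [map_mul]
    show ρ (g0 ^ i) (ρ x z) = z
    rw [zpowers_fix ρ z hzu x hx, hpow, hc1, one_pow, one_smul]) (by
    intro y hy
    obtain ⟨q, hq⟩ : ∃ q, p - 1 = q + 1 := ⟨p - 2, by have := hp.out.two_le; omega⟩
    rw [hq, pow_succ'] at hy
    exact hzl _ hy)
  exact hw'0 (hnf w' hw')

theorem det_diag {d : ℕ} (b : Basis (Fin d) k V) (f : Module.End k V) (c : Fin d → k)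
    (h : ∀ i, f (b i) = c i • b i) : LinearMap.det f = ∏ i, c i := by
  rw [← LinearMap.det_toMatrix b f]
  have h1 : LinearMap.toMatrix b b f = Matrix.diagonal c := by
    ext i j
    rw [LinearMap.toMatrix_apply, h, map_smul, Finsupp.smul_apply, Basis.repr_self, Matrix.diagonal_apply,
      Finsupp.single_apply]
    by_cases hij : i = j
    · subst hij; simp
    · rw [if_neg (fun h => hij h.symm), if_neg hij, smul_zero]
  rw [h1, Matrix.det_diagonal]

theorem no_half [IsAlgClosed k] (ρ : G →* Module.End k V) {u : G} (hu : orderOf u = p)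
    (hsq : ¬ p ^ 2 ∣ Nat.card G)
    (hirr : ∀ W : Submodule k V, (∀ g, ∀ w ∈ W, ρ g w ∈ W) → W = ⊥ ∨ W = ⊤)
    (hp5 : 5 ≤ p) (hV : 2 * finrank k V = p + 1) (g0 : G) (hg0 : g0 ∈ normalizer ((zpowers u : Subgroup G) : Set G))
    (hgen : ∀ n ∈ normalizer ((zpowers u : Subgroup G) : Set G), ∃ i : ℕ, ∃ x ∈ zpowers u, n = g0 ^ i * x)
    {e : ℕ} (heodd : Odd e) (hed : e ∣ p - 1)
    (hge : ∀ n ∈ normalizer ((zpowers u : Subgroup G) : Set G), n ^ e ∈ zpowers u)
    (hdet : ∀ g, LinearMap.det (ρ g) = 1)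
    (hnf : ∀ w, (∀ g, ρ g w = w) → w = 0) : False := by
  classical
  have hnt : Nontrivial V := Module.nontrivial_of_finrank_pos (R := k) (by omega)
  have he0 : 0 < e := heodd.pos
  have hep : e ≤ p - 1 := Nat.le_of_dvd (by omega) hed
  have hnz : ∀ m : ℕ, 0 < m → m < p → (m : k) ≠ 0 := by
    intro m hm0 hmp h
    rw [CharP.cast_eq_zero_iff k p] at h
    exact absurd (Nat.le_of_dvd hm0 h) (by omega)
  obtain ⟨l, r, z, c0, hl1, hlp, hlr, hzu, hgz, hzl, ⟨z', hz'⟩, hfin⟩ := jordan_line ρ hu hsq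
    (schur_of_irr ρ hirr) (hnz _ (by omega) (by omega)) g0 hg0 hgen (hnz e he0 (by omega)) (hge g0 hg0)
  set d := finrank k V with hd
  have hr : r = 0 := by
    rcases Nat.eq_zero_or_pos r with h | h
    · exact h
    · exfalso
      have : p * 1 ≤ p * r := Nat.mul_le_mul_left p h
      omega
  have hld : l = d := by rw [hlr, hr, mul_zero, zero_add]
  subst hr
  rw [hld] at hz' hzl
  have hU1 : (ρ u - 1) ^ (d - 1) ≠ 0 := by
    intro h
    rw [h] at hz'
    exact hzl 0 (by rw [map_zero]; exact hz')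
  obtain ⟨Φ, hΦ, hΦr, hΦu, K, hNK, hK⟩ := exists_model ρ hu hsq (n := d) rfl (by omega) (by omega) hU1
  -- preimages of the monomials
  have hX : ∀ i : Fin d, ∃ w : V, Φ w = (X : k[X]) ^ (i : ℕ) := by
    intro i
    have h1 : (X : k[X]) ^ (i : ℕ) ∈ LinearMap.range Φ := by
      rw [hΦr, mem_degreeLT, degree_X_pow]
      exact_mod_cast i.2
    exact h1
  choose bb hbb using hX
  have hli : LinearIndependent k bb := by
    have h1 : LinearIndependent k (Φ ∘ bb) := by
      have h2 : Φ ∘ bb = fun i : Fin d => (Polynomial.basisMonomials k) (i : ℕ) := by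
        funext i
        show Φ (bb i) = _
        rw [hbb, Polynomial.coe_basisMonomials, Polynomial.X_pow_eq_monomial]
      rw [h2]
      exact (Polynomial.basisMonomials k).linearIndependent.comp (fun i : Fin d => (i : ℕ)) Fin.val_injective
    exact LinearIndependent.of_comp Φ h1
  let b : Basis (Fin d) k V := basisOfLinearIndependentOfCardEqFinrank' bb hli (by simp [hd])
  have hb : ∀ i, Φ (b i) = (X : k[X]) ^ (i : ℕ) := by
    intro i
    have h1 : b i = bb i := by simp [b]
    rw [h1, hbb]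
  let i0 : Fin d := ⟨0, by omega⟩
  let i1 : Fin d := ⟨1, by omega⟩
  have hb0 : Φ (b i0) = 1 := by rw [hb]; exact pow_zero _
  have hb1 : Φ (b i1) = X := by rw [hb]; exact pow_one _
  have hu0 : ρ u (b i0) = b i0 := by
    apply hΦ
    rw [hΦu, hb0, one_comp]
  -- the weights
  have key : ∀ n ∈ normalizer ((zpowers u : Subgroup G) : Set G), ρ n (b i0) = b i0 := by
    intro n hn
    obtain ⟨x, hx, y, hy, rfl⟩ := hNK n hn
    have hxN : x ∈ normalizer ((zpowers u : Subgroup G) : Set G) := le_normalizer hx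
    have hyN : y ∈ normalizer ((zpowers u : Subgroup G) : Set G) := by
      have h1 := mul_mem (inv_mem hxN) hn
      rwa [inv_mul_cancel_left] at h1
    obtain ⟨a, μ, ha, haμ⟩ := hK y hy
    have hpow : ∀ (m : ℕ) (w : V), Φ (ρ (y ^ m) w) = μ ^ m • (Φ w).comp (C (a ^ m) * X + C 0) := by
      intro m
      induction m with
      | zero =>
        intro w
        rw [pow_zero, pow_zero, pow_zero, map_one, one_smul, C_1, C_0, one_mul, add_zero, comp_X]
        rfl
      | succ m ih =>
        intro w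
        rw [pow_succ', map_mul]
        show Φ (ρ y (ρ (y ^ m) w)) = _
        rw [haμ, ih, smul_comp, comp_assoc, smul_smul, ← pow_succ']
        congr 2
        simp only [add_comp, mul_comp, C_comp, X_comp, C_0, add_zero]
        rw [← mul_assoc, ← C_mul, ← pow_succ]
    obtain ⟨j, hj⟩ := hge y hyN
    have hj' : u ^ j = y ^ e := hj
    have hμe : μ ^ e = 1 := by
      have h1 := hpow e (b i0)
      rw [zpowers_fix ρ (b i0) hu0 _ (hge y hyN), hb0, one_comp, smul_eq_C_mul, mul_one] at h1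
      have h2 := congrArg (fun q : k[X] => q.coeff 0) h1
      simp only [coeff_one_zero, coeff_C_zero] at h2
      exact h2.symm
    have hae : a ^ e = 1 := by
      have h1 := hpow e (b i1)
      -- the power of `u` translates
      have h2 : ∀ g ∈ zpowers u, ∃ c : k, Φ (ρ g (b i1)) = X + C c := by
        intro g hg
        obtain ⟨i, hi, rfl⟩ : ∃ i : ℕ, i < orderOf u ∧ u ^ i = g := by
          rw [Subgroup.mem_zpowers_iff] at hg
          obtain ⟨i, hi⟩ := hg
          rw [← hi]
          have h3 := (isOfFinOrder_of_finite u)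
          have h4 : u ^ i ∈ Submonoid.powers u := by
            rw [h3.mem_powers_iff_mem_zpowers]
            exact ⟨i, rfl⟩
          rw [h3.mem_powers_iff_mem_range_orderOf, Finset.mem_image] at h4
          obtain ⟨n, hn, hn2⟩ := h4
          exact ⟨n, Finset.mem_range.1 hn, hn2⟩
        refine ⟨(i : k), ?_⟩
        clear hi
        induction i with
        | zero => rw [pow_zero, map_one]; simp [hb1]
        | succ i ih =>
          rw [pow_succ', map_mul]
          show Φ (ρ u (ρ (u ^ i) (b i1))) = _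
          rw [hΦu, ih (zpow_mem (mem_zpowers u) i |> fun h => by simpa using h)]
          simp only [add_comp, X_comp, C_comp, C_1, one_mul]
          push_cast
          rw [C_add, C_1]
          ring
      obtain ⟨c, hc⟩ := h2 _ (hge y hyN)
      rw [hc, hμe, one_smul, hb1, X_comp] at h1
      have h3 := congrArg (fun q : k[X] => q.coeff 1) h1
      simp only [coeff_add, coeff_X_one, coeff_C_mul, mul_one, C_0, coeff_zero, add_zero] at h3
      rw [coeff_C_succ, add_zero] at h3
      exact h3.symm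
    have hdy := hdet y
    rw [det_diag b (ρ y) (fun i => μ * a ^ (i : ℕ)) (by
      intro i
      apply hΦ
      rw [haμ, hb, map_smul, hb, C_0, add_zero, X_pow_comp, mul_pow, ← C_pow, smul_eq_C_mul, smul_eq_C_mul,
        ← mul_assoc, ← C_mul]), Finset.prod_mul_distrib, Finset.prod_const, Finset.card_univ,
      Fintype.card_fin, Finset.prod_pow_eq_pow_sum, Fin.sum_univ_eq_sum_range (fun i => i) d,
      Finset.sum_range_id] at hdy
    obtain ⟨t, ht⟩ : e ∣ d - 1 := by
      have h1 : p - 1 = 2 * (d - 1) := by omega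
      rw [h1] at hed
      exact (Nat.Coprime.dvd_of_dvd_mul_left (Nat.coprime_two_right.2 heodd) hed)
    have h1 : μ ^ d = μ := by
      have h2 : d = e * t + 1 := by omega
      rw [h2, pow_succ, pow_mul, hμe, one_pow, one_mul]
    have h2 : a ^ (d * (d - 1) / 2) = 1 := by
      have h3 : 2 ∣ d * (d - 1) := by
        have := Nat.even_mul_pred_self d
        exact this.two_dvd
      obtain ⟨s, hs⟩ := h3
      rw [hs, Nat.mul_div_cancel_left _ (by norm_num)]
      have h4 : e ∣ s := by
        have h5 : e ∣ 2 * s := by rw [← hs, ht]; exact ⟨d * t, by ring⟩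
        exact (Nat.Coprime.dvd_of_dvd_mul_left (Nat.coprime_two_right.2 heodd) h5)
      obtain ⟨s', rfl⟩ := h4
      rw [pow_mul, hae, one_pow]
    rw [h1, h2, mul_one] at hdy
    have h3 : ρ y (b i0) = b i0 := by
      apply hΦ
      rw [haμ, hdy, one_smul, hb0, one_comp]
    rw [map_mul]
    show ρ x (ρ y (b i0)) = _
    rw [h3]
    exact zpowers_fix ρ (b i0) hu0 x hx
  have hDd : (ρ u - 1) ^ (p - 1) = 0 := by
    have h1 : (ρ u - 1) ^ d = 0 := by
      rw [hd]
      exact pow_finrank_eq_zero (m := p) (sub_one_pow_p ρ (by rw [← hu]; exact pow_orderOf_eq_one u))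
    obtain ⟨s, hs⟩ := Nat.exists_eq_add_of_le (show d ≤ p - 1 by omega)
    rw [hs, pow_add, h1, zero_mul]
  obtain ⟨w', hw'0, hw'⟩ := fixed_vector ρ hu hsq (b i0) key (by
    intro y hy
    rw [hDd] at hy
    exact b.ne_zero i0 hy)
  exact hw'0 (hnf w' hw')

end main

end Cfsg.Agent.H8S
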