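import Mathlib
import Cfsg.Agent.H8S.JordC
import Cfsg.Agent.H79.ModR
import Cfsg.Agent.H79.ModT
import Cfsg.Agent.H79.ModW

/-!
# A simple group with a real irreducible representation of degree `p + 1` and a subgroup of index `p`
-/

set_option autoImplicit false
set_option linter.style.haveILetI false

open Module Subgroup
open scoped MatrixGroups

namespace Cfsg.Agent.H8S

open Cfsg.Agent.H79.MR
open Cfsg.Agent.H79 (exists_valuationSubring exists_integral_form)

universe u v w

section sub

variable {G : Type u} [Group G] {k : Type v} [Field k] {V : Type w} [AddCommGroup V] [Module k V]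

/-- restriction of a representation to an invariant submodule -/
def subRep (τ : G →* Module.End k V) (W : Submodule k V) (hW : ∀ g, ∀ w ∈ W, τ g w ∈ W) : G →* Module.End k W where
  toFun g := (τ g).restrict (hW g)
  map_one' := by
    refine LinearMap.ext (fun x => Subtype.ext ?_)
    show τ 1 (x : V) = x
    rw [map_one]; rfl
  map_mul' a b := by
    refine LinearMap.ext (fun x => Subtype.ext ?_)
    show τ (a * b) (x : V) = τ a (τ b x)
    rw [map_mul]; rfl

theorem subRep_apply (τ : G →* Module.End k V) (W : Submodule k V) (hW : ∀ g, ∀ w ∈ W, τ g w ∈ W) (g : G) (w : W) :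
    ((subRep τ W hW g w : W) : V) = τ g w := rfl

/-- the quotient representation -/
def quotRep (τ : G →* Module.End k V) (W : Submodule k V) (hW : ∀ g, ∀ w ∈ W, τ g w ∈ W) : G →* Module.End k (V ⧸ W) where
  toFun g := W.mapQ W (τ g) (hW g)
  map_one' := by
    refine LinearMap.ext (fun x => ?_)
    obtain ⟨v, rfl⟩ := Submodule.Quotient.mk_surjective W x
    show Submodule.Quotient.mk (τ 1 v) = _
    rw [map_one]; rfl
  map_mul' a b := by
    refine LinearMap.ext (fun x => ?_)
    obtain ⟨v, rfl⟩ := Submodule.Quotient.mk_surjective W x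
    show Submodule.Quotient.mk (τ (a * b) v) = _
    rw [map_mul]; rfl

theorem quotRep_mk (τ : G →* Module.End k V) (W : Submodule k V) (hW : ∀ g, ∀ w ∈ W, τ g w ∈ W) (g : G) (v : V) :
    quotRep τ W hW g (Submodule.Quotient.mk v) = Submodule.Quotient.mk (τ g v) := rfl

theorem exists_min [FiniteDimensional k V] [Nontrivial V] (τ : G →* Module.End k V) :
    ∃ (W : Submodule k V) (hW : ∀ g, ∀ w ∈ W, τ g w ∈ W), W ≠ ⊥ ∧
      ∀ U : Submodule k W, (∀ g, ∀ w ∈ U, subRep τ W hW g w ∈ U) → U = ⊥ ∨ U = ⊤ := by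
  classical
  have hex : ∃ n, ∃ W : Submodule k V, (∀ g, ∀ w ∈ W, τ g w ∈ W) ∧ W ≠ ⊥ ∧ finrank k W = n :=
    ⟨_, ⊤, fun _ _ _ => trivial, top_ne_bot, rfl⟩
  obtain ⟨W, hW, hW0, hWn⟩ := Nat.find_spec hex
  have hmin := fun m (hm : m < Nat.find hex) => Nat.find_min hex hm
  refine ⟨W, hW, hW0, ?_⟩
  intro U hU
  by_cases hU0 : U = ⊥
  · exact Or.inl hU0
  · right
    by_contra hUt
    have h1 : finrank k (U.map W.subtype) < Nat.find hex := by
      rw [← hWn, Submodule.finrank_map_subtype_eq]
      exact Submodule.finrank_lt hUt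
    apply hmin _ h1
    refine ⟨U.map W.subtype, ?_, ?_, rfl⟩
    · rintro g _ ⟨w, hw, rfl⟩
      exact ⟨subRep τ W hW g w, hU g w hw, rfl⟩
    · intro h
      apply hU0
      rw [eq_bot_iff]
      intro x hx
      have h2 : (x : V) ∈ U.map W.subtype := ⟨x, hx, rfl⟩
      rw [h, Submodule.mem_bot] at h2
      exact (Submodule.mem_bot k).2 (Subtype.ext h2)

end sub

section big

variable {G : Type u} [Group G] [Finite G] {p : ℕ} [hp : Fact p.Prime]
  {k : Type v} [Field k] [CharP k p] {V : Type w} [AddCommGroup V] [Module k V] [FiniteDimensional k V]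

omit [FiniteDimensional k V] in
theorem fixed_eq_zero (τ : G →* Module.End k V) (H : Subgroup G) [Fintype H] (hH : ¬ p ∣ Nat.card H)
    (hsum : ∑ h : H, τ (h : G) = 0) (w : V) (hw : ∀ g, τ g w = w) : w = 0 := by
  have h1 : (∑ h : H, τ (h : G)) w = (Nat.card H : k) • w := by
    have h0 : ∀ h ∈ (Finset.univ : Finset H), τ (h : G) w = w := fun h _ => hw (h : G)
    rw [LinearMap.sum_apply, Finset.sum_congr rfl h0, Finset.sum_const, Finset.card_univ,
      Nat.card_eq_fintype_card, Nat.cast_smul_eq_nsmul]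
  rw [hsum, LinearMap.zero_apply] at h1
  have h2 : (Nat.card H : k) ≠ 0 := by
    intro h
    rw [CharP.cast_eq_zero_iff k p] at h
    exact hH h
  exact (smul_eq_zero.1 h1.symm).resolve_left h2

theorem psl_of_small [IsAlgClosed k] [IsSimpleGroup G] (τ : G →* Module.End k V) {u : G} (hu : orderOf u = p)
    (hsq : ¬ p ^ 2 ∣ Nat.card G) [Nontrivial V]
    (hirr : ∀ W : Submodule k V, (∀ g, ∀ w ∈ W, τ g w ∈ W) → W = ⊥ ∨ W = ⊤)
    (hnf : ∀ w, (∀ g, τ g w = w) → w = 0) (hn : 2 * finrank k V + 1 ≤ p) :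
    Nonempty (G ≃* PSL(2, ZMod p)) := by
  have hgen : Subgroup.closure {g : G | g ^ p = 1} = ⊤ := by
    haveI := closure_pow_normal (G := G) (p := p)
    rcases this.eq_bot_or_eq_top with h | h
    · exfalso
      have h1 : u ∈ Subgroup.closure {g : G | g ^ p = 1} :=
        Subgroup.subset_closure (by show u ^ p = 1; rw [← hu]; exact pow_orderOf_eq_one u)
      rw [h, Subgroup.mem_bot] at h1
      rw [h1, orderOf_one] at hu
      exact hp.out.one_lt.ne hu
    · exact h
  obtain ⟨w, hw⟩ := exists_ne (0 : V)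
  have h1 : ∃ g, τ g ≠ 1 := by
    by_contra hcon
    push Not at hcon
    apply hw
    apply hnf
    intro g
    rw [hcon]; rfl
  obtain ⟨g1, hg1⟩ := h1
  have h2 := two_le_finrank (p := p) hgen τ hg1
  obtain ⟨D, hD, ⟨e⟩⟩ := exists_quot τ hu hsq hgen h2 hn (schur_of_irr τ hirr)
  rcases hD.eq_bot_or_eq_top with h | h
  · subst h
    exact ⟨(QuotientGroup.quotientBot (G := G)).symm.trans e⟩
  · exfalso
    subst h
    have h3 : Subsingleton (G ⧸ (⊤ : Subgroup G)) := QuotientGroup.subsingleton_quotient_top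
    have h4 : Subsingleton (PSL(2, ZMod p)) := e.symm.toEquiv.subsingleton
    exact (H79.MR.w0_ne_one (k := ZMod p)) (Subsingleton.elim _ _)

end big

end Cfsg.Agent.H8S
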