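import Mathlib
import Cfsg.Agent.H8S.Red

/-!
# A simple group with a real irreducible representation of degree `p + 1` and a subgroup of index `p`
-/

set_option autoImplicit false
set_option linter.style.haveILetI false

open Module Subgroup
open scoped MatrixGroups Matrix

namespace Cfsg.Agent.H8S

open Cfsg.Agent.H79.MR
open Cfsg.Agent.H79 (exists_valuationSubring exists_integral_form)

universe u v w

variable {G : Type u} [Group G] [Finite G]

/-- there are no invariants of a subgroup of small index -/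
theorem sum_eq_zero {n : ℕ} (ρ : G →* Module.End ℂ (Fin n → ℂ))
    (hirr : ∀ W : Submodule ℂ (Fin n → ℂ), (∀ g, ∀ w ∈ W, ρ g w ∈ W) → W = ⊥ ∨ W = ⊤)
    (H : Subgroup G) [Fintype H] (hH : H.index < n) : ∑ h : H, ρ (h : G) = 0 := by
  classical
  by_contra hne
  obtain ⟨v, hv⟩ : ∃ v, (∑ h : H, ρ (h : G)) v ≠ 0 := by
    by_contra hcon
    push Not at hcon
    exact hne (LinearMap.ext hcon)
  set w := (∑ h : H, ρ (h : G)) v with hw
  have hHw : ∀ x ∈ H, ρ x w = w := by
    intro x hx
    rw [hw, LinearMap.sum_apply, map_sum]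
    refine Fintype.sum_equiv (Equiv.mulLeft (⟨x, hx⟩ : H)) _ _ (fun h => ?_)
    show ρ x (ρ h v) = ρ (x * h) v
    rw [map_mul]; rfl
  haveI := Fintype.ofFinite (G ⧸ H)
  let F : G ⧸ H → (Fin n → ℂ) := fun q => ρ q.out w
  have hFmk : ∀ g : G, F (QuotientGroup.mk g) = ρ g w := by
    intro g
    obtain ⟨m, hm⟩ := QuotientGroup.mk_out_eq_mul H g
    show ρ (QuotientGroup.mk g : G ⧸ H).out w = _
    rw [hm, map_mul]
    show ρ g (ρ (m : G) w) = _
    rw [hHw _ m.2]
  have hinv : ∀ g, ∀ x ∈ Submodule.span ℂ (Set.range F), ρ g x ∈ Submodule.span ℂ (Set.range F) := by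
    intro g x hx
    have h1 : (Submodule.span ℂ (Set.range F)).map (ρ g) ≤ Submodule.span ℂ (Set.range F) := by
      rw [Submodule.map_span, Submodule.span_le]
      rintro _ ⟨_, ⟨q, rfl⟩, rfl⟩
      obtain ⟨a, rfl⟩ := QuotientGroup.mk_surjective q
      apply Submodule.subset_span
      refine ⟨QuotientGroup.mk (g * a), ?_⟩
      rw [hFmk, hFmk, map_mul]; rfl
    exact h1 ⟨x, hx, rfl⟩
  have hwm : w ∈ Submodule.span ℂ (Set.range F) := by
    apply Submodule.subset_span
    exact ⟨QuotientGroup.mk 1, by rw [hFmk, map_one]; rfl⟩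
  rcases hirr _ hinv with h | h
  · rw [h, Submodule.mem_bot] at hwm
    exact hv hwm
  · have h1 := finrank_range_le_card (R := ℂ) F
    rw [Set.finrank, h, finrank_top, Module.finrank_fin_fun] at h1
    have h2 : Fintype.card (G ⧸ H) = H.index := by rw [Subgroup.index, Nat.card_eq_fintype_card]
    omega

/-- a real character has a nonzero invariant form -/
theorem exists_form {n : ℕ} (hn : 0 < n) (M : G →* Matrix (Fin n) (Fin n) ℂ)
    (hreal : ∀ g, (starRingEnd ℂ) (M g).trace = (M g).trace) :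
    ∃ J : Matrix (Fin n) (Fin n) ℂ, J ≠ 0 ∧ ∀ g, (M g).transpose * J * M g = J := by
  classical
  haveI := Fintype.ofFinite G
  let J : Fin n → Fin n → Matrix (Fin n) (Fin n) ℂ := fun i j =>
    ∑ g : G, (M g).transpose * Matrix.single i j 1 * M g
  have hJ : ∀ i j x, (M x).transpose * J i j * M x = J i j := by
    intro i j x
    show (M x).transpose * (∑ g : G, (M g).transpose * Matrix.single i j 1 * M g) * M x = _
    rw [Finset.mul_sum, Finset.sum_mul]
    refine Fintype.sum_equiv (Equiv.mulRight x) _ _ (fun g => ?_)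
    show _ = (M (g * x)).transpose * Matrix.single i j 1 * M (g * x)
    rw [map_mul, Matrix.transpose_mul]
    simp only [Matrix.mul_assoc]
  have hJe : ∀ i j, J i j i j = ∑ g : G, M g i i * M g j j := by
    intro i j
    show (∑ g : G, ((M g).transpose * Matrix.single i j 1 * M g : Matrix (Fin n) (Fin n) ℂ)) i j = _
    rw [Matrix.sum_apply]
    refine Finset.sum_congr rfl (fun g _ => ?_)
    rw [Matrix.mul_apply, Finset.sum_eq_single j]
    · rw [Matrix.mul_apply, Finset.sum_eq_single i]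
      · rw [Matrix.single_apply_same, Matrix.transpose_apply, mul_one]
      · intro a _ hai
        rw [Matrix.single_apply_of_row_ne hai.symm, mul_zero]
      · intro h; exact absurd (Finset.mem_univ i) h
    · intro a _ haj
      rw [Matrix.mul_apply, Finset.sum_eq_zero, zero_mul]
      intro c _
      rw [Matrix.single_apply_of_col_ne _ _ haj.symm, mul_zero]
    · intro h; exact absurd (Finset.mem_univ j) h
  by_contra hcon
  push Not at hcon
  have hJ0 : ∀ i j, J i j = 0 := by
    intro i j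
    by_contra h
    obtain ⟨g, hg⟩ := hcon (J i j) h
    exact hg (hJ i j g)
  have h1 : ∑ g : G, (M g).trace * (M g).trace = 0 := by
    have h2 : ∑ i, ∑ j, J i j i j = 0 := by simp [hJ0]
    rw [← h2]
    simp only [hJe]
    simp only [Matrix.trace, Matrix.diag, Finset.sum_mul_sum]
    rw [Finset.sum_comm]
    refine Finset.sum_congr rfl (fun i _ => ?_)
    rw [Finset.sum_comm]
  have h2 : ∑ g : G, Complex.normSq (M g).trace = 0 := by
    have h3 : ((∑ g : G, Complex.normSq (M g).trace : ℝ) : ℂ) = 0 := by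
      rw [← h1]
      push_cast
      refine Finset.sum_congr rfl (fun g _ => ?_)
      rw [Complex.normSq_eq_conj_mul_self, hreal]
    exact_mod_cast h3
  rw [Finset.sum_eq_zero_iff_of_nonneg (fun g _ => Complex.normSq_nonneg _)] at h2
  have h3 := h2 1 (Finset.mem_univ _)
  rw [map_one, Matrix.trace_one, Fintype.card_fin, Complex.normSq_eq_zero] at h3
  have h4 : n = 0 := by exact_mod_cast h3
  omega

variable {p : ℕ} [hp : Fact p.Prime]

/-- scaling a form to the valuation ring -/
theorem scale_form (O : ValuationSubring ℂ) {n : ℕ} (J : Matrix (Fin n) (Fin n) ℂ) (hJ : J ≠ 0) :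
    ∃ (c : ℂ) (J0 : Matrix (Fin n) (Fin n) O) (a b : Fin n), c ≠ 0 ∧ J0 a b = 1 ∧
      ∀ i j, ((J0 i j : O) : ℂ) = c * J i j := by
  classical
  obtain ⟨i1, j1, h1⟩ : ∃ i j, J i j ≠ 0 := by
    by_contra hcon
    push Not at hcon
    exact hJ (Matrix.ext hcon)
  obtain ⟨q, hq⟩ : ∃ q : Fin n × Fin n, ∀ r : Fin n × Fin n, O.valuation (J r.1 r.2) ≤ O.valuation (J q.1 q.2) := by
    haveI : Nonempty (Fin n × Fin n) := ⟨(i1, j1)⟩
    exact Finite.exists_max (fun r : Fin n × Fin n => O.valuation (J r.1 r.2))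
  have hc : J q.1 q.2 ≠ 0 := by
    intro h0
    have h2 := hq (i1, j1)
    rw [h0, map_zero, le_zero_iff, map_eq_zero] at h2
    exact h1 h2
  have hO : ∀ i j, (J q.1 q.2)⁻¹ * J i j ∈ O := by
    intro i j
    rw [← ValuationSubring.valuation_le_one_iff, map_mul, map_inv₀]
    have h2 := hq (i, j)
    have h3 : O.valuation (J q.1 q.2) ≠ 0 := by rw [ne_eq, map_eq_zero]; exact hc
    calc (O.valuation (J q.1 q.2))⁻¹ * O.valuation (J i j)
        ≤ (O.valuation (J q.1 q.2))⁻¹ * O.valuation (J q.1 q.2) := mul_le_mul_right h2 _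
      _ = 1 := inv_mul_cancel₀ h3
  refine ⟨(J q.1 q.2)⁻¹, fun i j => ⟨(J q.1 q.2)⁻¹ * J i j, hO i j⟩, q.1, q.2, inv_ne_zero hc, ?_, fun i j => rfl⟩
  apply Subtype.ext
  show (J q.1 q.2)⁻¹ * J q.1 q.2 = 1
  exact inv_mul_cancel₀ hc

theorem form_of_matrix {k : Type v} [Field k] {n : ℕ} (Jk : Matrix (Fin n) (Fin n) k) {a b : Fin n}
    (hab : Jk a b = 1) (T : G → Matrix (Fin n) (Fin n) k)
    (hinvk : ∀ g, (T g).transpose * Jk * T g = Jk) (τ : G → Module.End k (Fin n → k))
    (hτ : ∀ g x, τ g x = T g *ᵥ x) :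
    ∃ b : (Fin n → k) →ₗ[k] (Fin n → k) →ₗ[k] k, b ≠ 0 ∧ ∀ g x y, b (τ g x) (τ g y) = b x y := by
  refine ⟨Matrix.toBilin' Jk, ?_, ?_⟩
  · intro h0
    have h1 := Matrix.toBilin'_single Jk a b
    rw [h0, hab] at h1
    exact one_ne_zero h1.symm
  · intro g x y
    have h2 : ∀ x y, Matrix.toBilin' Jk x y = x ⬝ᵥ Jk *ᵥ y := fun x y => Matrix.toBilin'_apply' Jk x y
    rw [h2, h2, hτ, hτ]
    have h1 : Jk *ᵥ y = ((T g).transpose * Jk * T g) *ᵥ y := by rw [hinvk]
    rw [h1, ← Matrix.mulVec_mulVec, ← Matrix.mulVec_mulVec, Matrix.dotProduct_mulVec x,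
      Matrix.vecMul_transpose]

/-- the modular reduction with the vanishing sum and the invariant form -/
theorem exists_reduction {n : ℕ} (hn : 0 < n) (ρ : G →* Module.End ℂ (Fin n → ℂ))
    (hreal : ∀ g, (starRingEnd ℂ) (LinearMap.trace ℂ _ (ρ g)) = LinearMap.trace ℂ _ (ρ g))
    (H : Subgroup G) [Fintype H] (hH : ∑ h : H, ρ (h : G) = 0) :
    ∃ (k : Type) (_ : Field k) (_ : CharP k p) (_ : IsAlgClosed k) (τ : G →* Module.End k (Fin n → k)),
      ∑ h : H, τ (h : G) = 0 ∧
      ∃ b : (Fin n → k) →ₗ[k] (Fin n → k) →ₗ[k] k, b ≠ 0 ∧ ∀ g x y, b (τ g x) (τ g y) = b x y := by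
  classical
  obtain ⟨O, hO⟩ := exists_valuationSubring p
  obtain ⟨σ, B, hσ⟩ := exists_integral_form O ρ
  let k0 := IsLocalRing.ResidueField O
  let k := AlgebraicClosure k0
  haveI : CharP k p := charP_of_injective_algebraMap (algebraMap k0 k).injective p
  let f : O →+* k := (algebraMap k0 k).comp (IsLocalRing.residue O)
  let τ : G →* Module.End k (Fin n → k) :=
    (Matrix.toLinAlgEquiv' (R := k) (n := Fin n)).toMonoidHom.comp
      ((RingHom.mapMatrix f).toMonoidHom.comp σ)
  have hτ : ∀ g x, τ g x = (σ g).map f *ᵥ x := fun g x => rfl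
  let ι : O →+* ℂ := O.subtype
  have hι : Function.Injective ι := Subtype.val_injective
  let M : G →* Matrix (Fin n) (Fin n) ℂ := (RingHom.mapMatrix ι).toMonoidHom.comp σ
  have hM : ∀ g, LinearMap.toMatrix B B (ρ g) = M g := by
    intro g
    ext i j
    rw [LinearMap.toMatrix_apply, hσ, map_sum, Finsupp.coe_finset_sum, Finset.sum_apply,
      Finset.sum_eq_single i]
    · rw [map_smul, Finsupp.smul_apply, Basis.repr_self, Finsupp.single_eq_same, smul_eq_mul, mul_one]
      rfl
    · intro b _ hb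
      rw [map_smul, Finsupp.smul_apply, Basis.repr_self, Finsupp.single_eq_of_ne (Ne.symm hb), smul_zero]
    · intro h; exact absurd (Finset.mem_univ i) h
  have hMi : Function.Injective (RingHom.mapMatrix ι : Matrix (Fin n) (Fin n) O →+* Matrix (Fin n) (Fin n) ℂ) := by
    intro A A' h
    ext i j
    exact congrFun (congrFun h i) j
  refine ⟨k, inferInstance, inferInstance, inferInstance, τ, ?_, ?_⟩
  · have h1 : ∑ h : H, σ (h : G) = 0 := by
      apply hMi
      rw [map_sum, map_zero]
      show ∑ h : H, M (h : G) = 0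
      simp only [← hM]
      rw [← map_sum, hH, map_zero]
    have h2 : ∑ h : H, τ (h : G) = (Matrix.toLinAlgEquiv' (R := k) (n := Fin n))
        ((RingHom.mapMatrix f) (∑ h : H, σ (h : G))) := by
      rw [map_sum, map_sum]; rfl
    rw [h2, h1, map_zero, map_zero]
  · have hMr : ∀ g, (starRingEnd ℂ) (M g).trace = (M g).trace := by
      intro g
      have h1 := hreal g
      rw [LinearMap.trace_eq_matrix_trace ℂ B, hM] at h1
      exact h1
    obtain ⟨J, hJ0, hJ⟩ := exists_form hn M hMr
    obtain ⟨c, J0, a, b, hc, hab, hJ0c⟩ := scale_form O J hJ0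
    have hJ0' : (RingHom.mapMatrix ι) J0 = c • J := by
      ext i j
      rw [Matrix.smul_apply, smul_eq_mul, ← hJ0c i j]
      rfl
    have hinv : ∀ g, (σ g).transpose * J0 * σ g = J0 := by
      intro g
      apply hMi
      rw [map_mul, map_mul, hJ0']
      have h1 : (RingHom.mapMatrix ι) (σ g).transpose = (M g).transpose := rfl
      have h2 : (RingHom.mapMatrix ι) (σ g) = M g := rfl
      rw [h1, h2, Matrix.mul_smul, Matrix.smul_mul, hJ]
    let Jk : Matrix (Fin n) (Fin n) k := J0.map f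
    have hinvk : ∀ g, ((σ g).map f).transpose * Jk * (σ g).map f = Jk := by
      intro g
      have h1 := congrArg (RingHom.mapMatrix f) (hinv g)
      rw [map_mul, map_mul] at h1
      exact h1
    exact form_of_matrix Jk (show f (J0 a b) = 1 by rw [hab, map_one]) (fun g => (σ g).map f) hinvk (fun g => τ g) hτ

/-- **Main reduction**. -/
theorem psl_of_real_rep [IsSimpleGroup G] (hna : ∃ a b : G, a * b ≠ b * a) (hp5 : 5 ≤ p)
    {u : G} (hu : orderOf u = p) (hsq : ¬ p ^ 2 ∣ Nat.card G)
    (g0 : G) (hg0 : g0 ∈ normalizer ((zpowers u : Subgroup G) : Set G))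
    (hgen : ∀ n ∈ normalizer ((zpowers u : Subgroup G) : Set G), ∃ i : ℕ, ∃ x ∈ zpowers u, n = g0 ^ i * x)
    {e : ℕ} (heodd : Odd e) (hed : e ∣ p - 1)
    (hge : ∀ n ∈ normalizer ((zpowers u : Subgroup G) : Set G), n ^ e ∈ zpowers u)
    (ρ : G →* Module.End ℂ (Fin (p + 1) → ℂ))
    (hirr : ∀ W : Submodule ℂ (Fin (p + 1) → ℂ), (∀ g, ∀ w ∈ W, ρ g w ∈ W) → W = ⊥ ∨ W = ⊤)
    (hreal : ∀ g, (starRingEnd ℂ) (LinearMap.trace ℂ _ (ρ g)) = LinearMap.trace ℂ _ (ρ g))
    (H : Subgroup G) (hHi : H.index ≤ p) (hHp : ¬ p ∣ Nat.card H) :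
    Nonempty (G ≃* PSL(2, ZMod p)) := by
  classical
  haveI := Fintype.ofFinite H
  by_contra hno
  obtain ⟨k, i1, i2, i3, τ, hsum, b, hb0, hb⟩ := exists_reduction (p := p) (by omega) ρ hreal H
    (sum_eq_zero ρ hirr H (by omega))
  have he0 : (e : k) ≠ 0 := by
    intro h
    rw [CharP.cast_eq_zero_iff k p] at h
    have h1 := Nat.le_of_dvd heodd.pos h
    have h2 := Nat.le_of_dvd (by omega) hed
    omega
  have hodd : Odd p := hp.out.odd_of_ne_two (by omega)
  have hnt : Nontrivial (Fin (p + 1) → k) := Module.nontrivial_of_finrank_pos (R := k) (by rw [Module.finrank_fin_fun]; omega)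
  obtain ⟨W, hW, hW0, hWirr⟩ := exists_min τ
  -- sums on the pieces
  have hsumW : ∑ h : H, subRep τ W hW (h : G) = 0 := by
    refine LinearMap.ext (fun w => Subtype.ext ?_)
    rw [LinearMap.sum_apply, Submodule.coe_sum]
    have h1 : ∑ h : H, ((subRep τ W hW (h : G) w : W) : Fin (p + 1) → k) = (∑ h : H, τ (h : G)) (w : Fin (p + 1) → k) := by
      rw [LinearMap.sum_apply]; rfl
    rw [h1, hsum]; rfl
  have hbig : ∀ (V' : Type) (_ : AddCommGroup V') (_ : Module k V') (_ : FiniteDimensional k V') (_ : Nontrivial V')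
      (τ' : G →* Module.End k V') (_ : ∀ U : Submodule k V', (∀ g, ∀ w ∈ U, τ' g w ∈ U) → U = ⊥ ∨ U = ⊤)
      (_ : ∑ h : H, τ' (h : G) = 0), p + 1 ≤ 2 * finrank k V' := by
    intro V' _ _ _ _ τ' hirr' hs'
    by_contra hlt
    push Not at hlt
    apply hno
    have h1 : 2 * finrank k V' + 1 ≤ p := by
      obtain ⟨m, hm⟩ := hodd
      omega
    exact psl_of_small τ' hu hsq hirr' (fun w hw => fixed_eq_zero τ' H hHp hs' w hw) h1
  have hWnt : Nontrivial W := Submodule.nontrivial_iff_ne_bot.2 hW0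
  have h1 := hbig W inferInstance inferInstance inferInstance hWnt (subRep τ W hW) hWirr hsumW
  by_cases hWt : W = ⊤
  · -- irreducible
    apply no_form τ hu hsq (V := Fin (p + 1) → k) ?_ (by rw [Module.finrank_fin_fun]) g0 hg0 hgen heodd he0 (hge g0 hg0)
      b hb hb0 (fun w hw => fixed_eq_zero τ H hHp hsum w hw)
    intro U hU
    rcases hWirr (U.comap W.subtype) (fun g w hw => hU g _ hw) with h | h
    · left
      rw [eq_bot_iff]
      intro x hx
      have hxW : x ∈ W := by rw [hWt]; trivial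
      have h2 : (⟨x, hxW⟩ : W) ∈ U.comap W.subtype := hx
      rw [h, Submodule.mem_bot] at h2
      exact (Submodule.mem_bot k).2 (congrArg Subtype.val h2)
    · right
      rw [eq_top_iff]
      intro x _
      have hxW : x ∈ W := by rw [hWt]; trivial
      have h2 : (⟨x, hxW⟩ : W) ∈ U.comap W.subtype := by rw [h]; trivial
      exact h2
  · -- two factors
    have hQnt : Nontrivial ((Fin (p + 1) → k) ⧸ W) := Submodule.Quotient.nontrivial_iff.2 hWt
    have hsumQ : ∑ h : H, quotRep τ W hW (h : G) = 0 := by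
      refine LinearMap.ext (fun x => ?_)
      obtain ⟨v, rfl⟩ := Submodule.Quotient.mk_surjective W x
      rw [LinearMap.sum_apply]
      have h1 : ∑ h : H, quotRep τ W hW (h : G) (Submodule.Quotient.mk v) =
          W.mkQ ((∑ h : H, τ (h : G)) v) := by
        rw [LinearMap.sum_apply, map_sum]; rfl
      rw [h1, hsum]
      simp
    obtain ⟨U, hU, hU0, hUirr⟩ := exists_min (quotRep τ W hW)
    have hUnt : Nontrivial U := Submodule.nontrivial_iff_ne_bot.2 hU0
    have hsumU : ∑ h : H, subRep (quotRep τ W hW) U hU (h : G) = 0 := by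
      refine LinearMap.ext (fun w => Subtype.ext ?_)
      rw [LinearMap.sum_apply, Submodule.coe_sum]
      have h1 : ∑ h : H, ((subRep (quotRep τ W hW) U hU (h : G) w : U) : (Fin (p + 1) → k) ⧸ W) =
          (∑ h : H, quotRep τ W hW (h : G)) (w : (Fin (p + 1) → k) ⧸ W) := by
        rw [LinearMap.sum_apply]; rfl
      rw [h1, hsumQ]; rfl
    have h2 := hbig U inferInstance inferInstance inferInstance hUnt (subRep (quotRep τ W hW) U hU) hUirr hsumU
    have h3 := U.finrank_le
    have h4 := W.finrank_quotient_add_finrank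
    rw [Module.finrank_fin_fun] at h4
    have h5 : 2 * finrank k W = p + 1 := by omega
    have hdet : ∀ g, LinearMap.det (subRep τ W hW g) = 1 := by
      let d : G →* k := LinearMap.det.comp (subRep τ W hW)
      have hker : d.ker = ⊤ := by
        rcases (inferInstance : d.ker.Normal).eq_bot_or_eq_top with h | h
        · exfalso
          obtain ⟨x, y, hxy⟩ := hna
          apply hxy
          have h6 : d (x * y * (y * x)⁻¹) = 1 := by
            rw [map_mul]
            have h7 : d (x * y) = d (y * x) := by rw [map_mul, map_mul, mul_comm]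
            rw [h7, ← map_mul, mul_inv_cancel, map_one]
          have h8 : x * y * (y * x)⁻¹ ∈ d.ker := h6
          rw [h, Subgroup.mem_bot, mul_inv_eq_one] at h8
          exact h8
        · exact h
      intro g
      have h6 : g ∈ d.ker := by rw [hker]; trivial
      exact h6
    exact no_half (subRep τ W hW) hu hsq hWirr hp5 h5 g0 hg0 hgen heodd hed hge hdet
      (fun w hw => fixed_eq_zero (subRep τ W hW) H hHp hsumW w hw)

end Cfsg.Agent.H8S
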