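import Mathlib
import Cfsg.Agent.H8S.OddA
import Cfsg.Agent.H8S.RedB
import Cfsg.Agent.ClassBase.SimpleSmall

/-!
# The odd case: identification with `PSL(2, p)`
-/

set_option autoImplicit false
set_option linter.style.haveILetI false
set_option linter.unusedVariables false
set_option linter.unusedSectionVars false

open Subgroup MulAction
open scoped MatrixGroups Matrix

namespace Cfsg.Agent.H8S

open Cfsg

open scoped ComplexConjugate

theorem odd_mem {G : Type*} [Group G] [Finite G] {E W : Subgroup G} (hEW : E ≤ W)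
    (hc : Nat.card W = 2 * Nat.card E) {z : G} (hz : z ∈ W) (ho : Odd (orderOf z)) : z ∈ E := by
  have h7 : (E.subgroupOf W).index = 2 := by
    have h8 := Subgroup.card_mul_index (E.subgroupOf W)
    rw [Nat.card_congr (Subgroup.subgroupOfEquivOfLe hEW).toEquiv, hc, mul_comm 2] at h8
    exact Nat.eq_of_mul_eq_mul_left Nat.card_pos h8
  have h9 := Subgroup.sq_mem_of_index_two h7 ⟨z, hz⟩
  rw [Subgroup.mem_subgroupOf] at h9
  have h10 : z ^ 2 ∈ E := h9
  obtain ⟨k, hk⟩ := ho
  have h11 : z = (z ^ 2) ^ (k + 1) := by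
    rw [← pow_mul, show 2 * (k + 1) = orderOf z + 1 by omega, pow_succ, pow_orderOf_eq_one, one_mul]
  rw [h11]
  exact pow_mem h10 _

/-- the involution in the normalizer does not centralize the complement -/
theorem exists_moved {G : Type*} [Group G] [Finite G] [IsSimpleGroup G] (hna : ∃ a b : G, a * b ≠ b * a)
    {E : Subgroup G} (hcomm : ∀ x ∈ E, ∀ y ∈ E, x * y = y * x)
    (hNE : Nat.card (Subgroup.normalizer (E : Set G)) = 2 * Nat.card E)
    (hTI : ∀ g : G, g ∉ Subgroup.normalizer (E : Set G) → E ⊓ E.map (MulAut.conj g).toMonoidHom = ⊥)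
    (hodd : Odd (Nat.card E)) (he : 2 ≤ Nat.card E) {t : G} (htN : t ∈ normalizer (E : Set G)) (htE : t ∉ E) :
    ∃ x0 ∈ E, t * x0 * t⁻¹ ≠ x0 := by
  classical
  by_contra hcon
  push Not at hcon
  set W := normalizer (E : Set G) with hW
  have hEW : E ≤ W := Subgroup.le_normalizer
  have hidx : (E.subgroupOf W).index = 2 := by
    have h8 := Subgroup.card_mul_index (E.subgroupOf W)
    rw [Nat.card_congr (Subgroup.subgroupOfEquivOfLe hEW).toEquiv, hNE, mul_comm 2] at h8
    exact Nat.eq_of_mul_eq_mul_left Nat.card_pos h8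
  have htg : ∀ g ∈ W, g ∉ E → t * g ∈ E := by
    intro g hg hgE
    have h1 := (Subgroup.mul_mem_iff_of_index_two hidx (a := (⟨t, htN⟩ : W)) (b := ⟨g, hg⟩)).2 (by
      simp only [Subgroup.mem_subgroupOf, htE, hgE])
    exact h1
  have hWC : W ≤ centralizer (E : Set G) := by
    intro g hg
    rw [Subgroup.mem_centralizer_iff]
    intro x hx
    by_cases hgE : g ∈ E
    · exact hcomm x hx g hgE
    · have h1 := htg g hg hgE
      have h2 := hcomm x hx _ h1
      have h3 : t * x = x * t := by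
        have h4 := hcon x hx
        calc t * x = t * x * t⁻¹ * t := by group
          _ = x * t := by rw [h4]
      have h4 : t * (x * g) = t * (g * x) := by
        calc t * (x * g) = (t * x) * g := by group
          _ = x * (t * g) := by rw [h3]; group
          _ = t * g * x := h2
          _ = _ := by group
      exact mul_left_cancel h4
  -- a Sylow subgroup inside `E`
  obtain ⟨q, hq, hqd⟩ := Nat.exists_prime_and_dvd (n := Nat.card E) (by omega)
  haveI := Fact.mk hq
  have hq2 : q ≠ 2 := by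
    rintro rfl
    exact (Nat.not_even_iff_odd.2 hodd) (even_iff_two_dvd.2 hqd)
  obtain ⟨x', hx'⟩ := exists_prime_orderOf_dvd_card' (G := E) q hqd
  obtain ⟨x, hxE, hxo⟩ : ∃ x : G, x ∈ E ∧ orderOf x = q := ⟨x', x'.2, by rw [Subgroup.orderOf_coe]; exact hx'⟩
  have hx1 : x ≠ 1 := by
    rintro rfl
    rw [orderOf_one] at hxo
    exact hq.one_lt.ne hxo
  have hxp : IsPGroup q (zpowers x) := by
    apply IsPGroup.of_card (n := 1)
    rw [Nat.card_zpowers, hxo, pow_one]
  obtain ⟨Q, hQ⟩ := hxp.exists_le_sylow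
  have hxQ : x ∈ (Q : Subgroup G) := hQ (mem_zpowers x)
  have hoddQ : ∀ y ∈ (Q : Subgroup G), Odd (orderOf y) := by
    intro y hy
    obtain ⟨n, hn⟩ := Q.isPGroup'.exists_card_eq
    have h1 : orderOf y ∣ q ^ n := by
      rw [← hn]
      exact Subgroup.orderOf_dvd_natCard _ hy
    exact ((hq.odd_of_ne_two hq2).pow).of_dvd_nat h1
  haveI : Nontrivial (Q : Subgroup G) := ⟨⟨⟨x, hxQ⟩, 1, fun h => hx1 (congrArg Subtype.val h)⟩⟩
  obtain ⟨z, hz⟩ := (Subgroup.nontrivial_iff_exists_ne_one _).1 (IsPGroup.center_nontrivial Q.isPGroup')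
  obtain ⟨hzc, hz1⟩ := hz
  have hzcomm : ∀ y ∈ (Q : Subgroup G), (z : G) * y = y * z := by
    intro y hy
    have := Subgroup.mem_center_iff.1 hzc ⟨y, hy⟩
    exact (congrArg Subtype.val this).symm
  have hz1' : (z : G) ≠ 1 := fun h => hz1 (Subtype.ext h)
  have hti : ∀ g y : G, y ∈ E → y ≠ 1 → g * y * g⁻¹ ∈ E → g ∈ W := by
    intro g y hy hy1 h
    by_contra hg
    have h1 := hTI g hg
    have h2 : g * y * g⁻¹ ∈ E ⊓ E.map (MulAut.conj g).toMonoidHom := ⟨h, ⟨y, hy, rfl⟩⟩
    rw [h1, Subgroup.mem_bot] at h2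
    apply hy1
    have h3 : y = g⁻¹ * (g * y * g⁻¹) * g := by group
    rw [h3, h2]; group
  have hzE : (z : G) ∈ E := by
    apply odd_mem hEW hNE _ (hoddQ z z.2)
    apply hti z x hxE hx1
    rw [hzcomm x hxQ, mul_inv_cancel_right]
    exact hxE
  have hQE : (Q : Subgroup G) ≤ E := by
    intro y hy
    apply odd_mem hEW hNE _ (hoddQ y hy)
    apply hti y z hzE hz1'
    rw [← hzcomm y hy, mul_inv_cancel_right]
    exact hzE
  refine ClassBase.not_normalizer_le_centralizer Q ?_ ?_ ?_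
  · intro h
    rw [h, Subgroup.mem_bot] at hxQ
    exact hx1 hxQ
  · intro h
    obtain ⟨a, b, hab⟩ := hna
    rw [h] at hQE
    exact hab (hcomm a (hQE (mem_top a)) b (hQE (mem_top b)))
  · intro g hg
    have h1 : g ∈ W := by
      apply hti g z hzE hz1'
      exact hQE ((Subgroup.mem_normalizer_iff.1 hg z).1 z.2)
    have h2 := hWC h1
    exact Subgroup.centralizer_le (fun y hy => hQE hy) h2

theorem real_root {z : ℂ} (h : (starRingEnd ℂ) z = z) {n : ℕ} (hn : Odd n) (hz : z ^ n = 1) : z = 1 := by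
  rw [Complex.conj_eq_iff_real] at h
  obtain ⟨r, rfl⟩ := h
  have h1 : r ^ n = 1 ^ n := by
    rw [one_pow]
    exact_mod_cast hz
  have h2 := hn.strictMono_pow.injective h1
  rw [h2]; simp

variable {α : Type*} [Fintype α] [DecidableEq α] {p : ℕ} [hp : Fact p.Prime]

theorem odd_case (hα : Fintype.card α = p) (G : Subgroup (Equiv.Perm α)) [IsPretransitive G α]
    (P : Sylow p G) (E : Subgroup G) {u : G} {a0 : α} {χ : IrrCharacter G} (D : Data p G (P : Subgroup G) E u a0 χ)
    (hPE : (P : Subgroup G) ⊔ E = Subgroup.normalizer ((P : Subgroup G) : Set G))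
    (hNE : Nat.card (Subgroup.normalizer (E : Set G)) = 2 * Nat.card E)
    (hTI : ∀ g : G, g ∉ Subgroup.normalizer (E : Set G) → E ⊓ E.map (MulAut.conj g).toMonoidHom = ⊥)
    (hodd : Odd (Nat.card E)) : Nonempty (G ≃* PSL(2, ZMod p)) := by
  classical
  haveI := D.simple
  haveI := D.cyc
  have hp5 := D.five
  haveI := Fintype.ofFinite G
  have h2f : Fact (Nat.Prime 2) := ⟨Nat.prime_two⟩
  have hcomm : ∀ x ∈ E, ∀ y ∈ E, x * y = y * x := by
    intro x hx y hy
    letI := IsCyclic.commGroup (α := E)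
    exact congrArg Subtype.val (mul_comm (⟨x, hx⟩ : E) ⟨y, hy⟩)
  obtain ⟨t', ht'⟩ := exists_prime_orderOf_dvd_card' (G := normalizer (E : Set G)) 2 (by rw [hNE]; exact dvd_mul_right _ _)
  obtain ⟨t, htN, hto⟩ : ∃ t : G, t ∈ normalizer (E : Set G) ∧ orderOf t = 2 :=
    ⟨t', t'.2, by rw [Subgroup.orderOf_coe]; exact ht'⟩
  have htt : t * t = 1 := by rw [← pow_two, ← hto, pow_orderOf_eq_one]
  have htE : t ∉ E := by
    intro h
    have h1 : orderOf t ∣ Nat.card E := Subgroup.orderOf_dvd_natCard _ h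
    rw [hto] at h1
    exact (Nat.not_even_iff_odd.2 hodd) (even_iff_two_dvd.2 h1)
  obtain ⟨x0, hx0, hne⟩ := exists_moved D.nonab hcomm hNE hTI hodd D.two htN htE
  have hχE : ∀ x ∈ E, x ≠ 1 → (χ : G → ℂ) x = 1 := fun x hx hx1 => real_root (D.real x) hodd (D.pow x hx hx1)
  have hd : (χ : G → ℂ) 1 = (p : ℂ) := by rw [H79.irr_one, D.deg]
  obtain ⟨Λ, ⟨n, ρ, hρ, hρΛ⟩, hΛ1, hΛr⟩ := exists_lambda hcomm hNE hTI hodd htN htE htt hx0 hne χ hχE D.real hd (by omega)
  have hn : n = p + 1 := by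
    have h1 : ρ.character 1 = (n : ℂ) := by simp
    rw [hρΛ, hΛ1] at h1
    exact_mod_cast h1.symm
  subst hn
  obtain ⟨g0, hg0⟩ := D.cyc.exists_generator
  have hEN : E ≤ normalizer ((P : Subgroup G) : Set G) := by rw [← hPE]; exact le_sup_right
  have hgen : ∀ n ∈ normalizer ((P : Subgroup G) : Set G), ∃ x ∈ (P : Subgroup G), ∃ y ∈ E, n = y * x := by
    intro n hn
    rw [← hPE] at hn
    rw [← SetLike.mem_coe, sup_comm, Subgroup.coe_mul_of_left_le_normalizer_right E _ hEN, Set.mem_mul] at hn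
    obtain ⟨y, hy, x, hx, h⟩ := hn
    exact ⟨x, hx, y, hy, h.symm⟩
  haveI hPn : ((P : Subgroup G).subgroupOf (normalizer ((P : Subgroup G) : Set G))).Normal := inferInstance
  refine psl_of_real_rep (G := G) (p := p) D.nonab hp5 D.hu (not_sq_dvd hα G) (g0 : G) ?_ ?_ (e := Nat.card E) hodd D.dvd ?_
    ρ ?_ ?_ (stabilizer G a0) ?_ ?_
  · rw [← D.hPu]; exact hEN g0.2
  · rw [← D.hPu]
    intro n hn
    obtain ⟨x, hx, y, hy, rfl⟩ := hgen n hn
    obtain ⟨i, hi⟩ := (mem_powers_iff_mem_zpowers.2 (hg0 ⟨y, hy⟩) : (⟨y, hy⟩ : E) ∈ Submonoid.powers g0)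
    refine ⟨i, x, hx, ?_⟩
    have h1 : (g0 : G) ^ i = y := congrArg Subtype.val hi
    rw [h1]
  · rw [← D.hPu]
    intro n hn
    obtain ⟨x, hx, y, hy, rfl⟩ := hgen n hn
    have h1 : ∀ k : ℕ, ∃ x' ∈ (P : Subgroup G), (y * x) ^ k = y ^ k * x' := by
      intro k
      induction k with
      | zero => exact ⟨1, one_mem _, by simp⟩
      | succ k ih =>
        obtain ⟨x', hx', h⟩ := ih
        refine ⟨y⁻¹ * x' * y * x, mul_mem ?_ hx, ?_⟩
        · have := (Subgroup.mem_normalizer_iff.1 (inv_mem (hEN hy)) x').1 hx'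
          rwa [inv_inv] at this
        · rw [pow_succ, h, pow_succ]; group
    obtain ⟨x', hx', h⟩ := h1 (Nat.card E)
    have h2 : y ^ (Nat.card E) = 1 := by
      have := pow_card_eq_one' (x := (⟨y, hy⟩ : E))
      exact congrArg Subtype.val this
    rw [h, h2, one_mul]
    exact hx'
  · intro W hW
    let W' : Subrepresentation (ρ : Representation ℂ G (Fin (p + 1) → ℂ)) := ⟨W, fun g v hv => hW g v hv⟩
    rcases hρ.eq_bot_or_eq_top W' with h | h
    · left; exact congrArg Subrepresentation.toSubmodule h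
    · right; exact congrArg Subrepresentation.toSubmodule h
  · intro g
    have h1 : LinearMap.trace ℂ _ (ρ g) = Λ g := by rw [← hρΛ]; rfl
    rw [h1, hΛr]
  · have := index_stabilizer_of_transitive G a0
    rw [Nat.card_eq_fintype_card, hα] at this
    exact le_of_eq this
  · intro h
    apply not_sq_dvd hα G
    have := index_stabilizer_of_transitive G a0
    rw [Nat.card_eq_fintype_card, hα] at this
    rw [← (stabilizer G a0).card_mul_index, this, pow_two]
    exact Nat.mul_dvd_mul_right h p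

end Cfsg.Agent.H8S
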