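import Mathlib
import Cfsg.Agent.H8S.OddB
import Cfsg.Agent.H74.PrimeHalf
import Cfsg.Agent.H14.SubField
import Cfsg.Agent.H12.DegreeSeven

/-!
# The final numerical steps
-/

set_option autoImplicit false
set_option linter.style.haveILetI false
set_option linter.unusedVariables false
set_option linter.unusedSectionVars false

open Subgroup MulAction
open scoped MatrixGroups Matrix

namespace Cfsg.Agent.H8S

open Cfsg

variable {α : Type*} [Fintype α] [DecidableEq α]

theorem card_pair_stab {G : Subgroup (Equiv.Perm α)} (h2 : IsMultiplyPretransitive G α 2) {a b : α} (hab : a ≠ b) :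
    Nat.card ↥(stabilizer G a ⊓ stabilizer G b) * (Fintype.card α * (Fintype.card α - 1)) = Nat.card G := by
  classical
  have h1 := h2.index_of_fixingSubgroup_mul (s := (({a, b} : Finset α) : Set α)) (by
    rw [Set.ncard_coe_finset, Finset.card_pair hab])
  have hM : fixingSubgroup G (({a, b} : Finset α) : Set α) = stabilizer G a ⊓ stabilizer G b := by
    ext g
    rw [mem_fixingSubgroup_iff, Subgroup.mem_inf, mem_stabilizer_iff, mem_stabilizer_iff]
    constructor
    · intro h
      exact ⟨h a (by simp), h b (by simp)⟩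
    · rintro ⟨h1, h2⟩ y hy
      simp only [Finset.coe_insert, Finset.coe_singleton, Set.mem_insert_iff, Set.mem_singleton_iff] at hy
      rcases hy with rfl | rfl
      · exact h1
      · exact h2
  rw [hM, Nat.card_eq_fintype_card (α := α)] at h1
  have h2c : 2 ≤ Fintype.card α := Fintype.one_lt_card_iff.2 ⟨a, b, hab⟩
  obtain ⟨n, hn⟩ : ∃ n, Fintype.card α = n + 2 := ⟨Fintype.card α - 2, by omega⟩
  rw [hn] at h1 ⊢
  rw [show n + 2 - 2 = n by omega, Nat.factorial_succ, Nat.factorial_succ, ← mul_assoc] at h1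
  have h3 := Nat.eq_of_mul_eq_mul_right (Nat.factorial_pos n) h1
  have : n + 2 - 1 = n + 1 := by omega
  rw [this, ← (stabilizer G a ⊓ stabilizer G b).card_mul_index, h3]

theorem orbit_numbers {G : Subgroup (Equiv.Perm α)} {a b : α} (hab : a ≠ b)
    (h4 : Nat.card (orbitRel.Quotient ↥(stabilizer G a ⊓ stabilizer G b) α) = 4) :
    ∃ x y : ℕ, x + y + 2 = Fintype.card α ∧ x ∣ Nat.card ↥(stabilizer G a ⊓ stabilizer G b) ∧
      y ∣ Nat.card ↥(stabilizer G a ⊓ stabilizer G b) := by
  classical
  set M := stabilizer G a ⊓ stabilizer G b with hM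
  haveI := Fintype.ofFinite (orbitRel.Quotient M α)
  let f : orbitRel.Quotient M α → ℕ := fun ω => Nat.card (orbitRel.Quotient.orbit ω)
  have hsum : ∑ ω, f ω = Fintype.card α := by
    haveI : ∀ ω : orbitRel.Quotient M α, Fintype (orbitRel.Quotient.orbit ω) := fun ω => Fintype.ofFinite _
    rw [Fintype.card_congr (selfEquivSigmaOrbits' M α), Fintype.card_sigma]
    refine Finset.sum_congr rfl fun ω _ => ?_
    simp only [f]
    rw [Nat.card_eq_fintype_card]
  have horb : ∀ c : α, f (Quotient.mk'' c) = Nat.card (orbit M c) := by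
    intro c
    simp only [f]
    rw [orbitRel.Quotient.orbit_mk]
  have hdvd : ∀ ω, f ω ∣ Nat.card M := by
    intro ω
    induction ω using Quotient.inductionOn' with
    | h c =>
      rw [horb]
      haveI := Fintype.ofFinite M
      haveI := Fintype.ofFinite (orbit M c)
      haveI := Fintype.ofFinite (stabilizer M c)
      have h1 := card_orbit_mul_card_stabilizer_eq_card_group M c
      rw [Nat.card_eq_fintype_card, Nat.card_eq_fintype_card, ← h1]
      exact dvd_mul_right _ _
  have hfix : ∀ c : α, (∀ m : M, m • c = c) → f (Quotient.mk'' c) = 1 := by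
    intro c hc
    rw [horb]
    have h1 : orbit M c = {c} := by
      ext z
      rw [mem_orbit_iff, Set.mem_singleton_iff]
      constructor
      · rintro ⟨m, rfl⟩
        exact hc m
      · rintro rfl
        exact ⟨1, one_smul _ _⟩
    rw [h1]
    simp
  have ha : ∀ m : M, m • a = a := fun m => m.2.1
  have hb : ∀ m : M, m • b = b := fun m => m.2.2
  have hne : (Quotient.mk'' a : orbitRel.Quotient M α) ≠ Quotient.mk'' b := by
    intro h
    have h1 : (orbitRel M α).r a b := Quotient.exact h
    have h2 : a ∈ orbit M b := h1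
    obtain ⟨m, hm⟩ := h2
    have hm' : m • b = a := hm
    rw [hb m] at hm'
    exact hab hm'.symm
  set ωa : orbitRel.Quotient M α := Quotient.mk'' a with hωa
  set ωb : orbitRel.Quotient M α := Quotient.mk'' b with hωb
  have hcard : ((Finset.univ : Finset (orbitRel.Quotient M α)).erase ωa |>.erase ωb).card = 2 := by
    rw [Finset.card_erase_of_mem (Finset.mem_erase.2 ⟨hne.symm, Finset.mem_univ _⟩),
      Finset.card_erase_of_mem (Finset.mem_univ _), Finset.card_univ, ← Nat.card_eq_fintype_card, h4]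
  obtain ⟨x, y, hxy, hset⟩ := Finset.card_eq_two.1 hcard
  refine ⟨f x, f y, ?_, hdvd x, hdvd y⟩
  rw [← hsum, ← Finset.add_sum_erase _ _ (Finset.mem_univ ωa),
    ← Finset.add_sum_erase _ _ (Finset.mem_erase.2 ⟨hne.symm, Finset.mem_univ ωb⟩), hset,
    Finset.sum_pair hxy, hfix a ha, hfix b hb]
  ring

theorem nums {m x y : ℕ} (hm : 4 ≤ m) (hxy : x + y + 3 = 2 * m) (hx : x ∣ m) (hy : y ∣ m) : m = 4 ∨ m = 6 := by
  have key : ∀ y : ℕ, y + 3 = m → y ∣ m → m = 4 ∨ m = 6 := by
    intro y hy3 hy
    have h1 : y ∣ 3 := (Nat.dvd_add_right (dvd_refl y)).1 (by rw [hy3]; exact hy)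
    rcases (Nat.dvd_prime Nat.prime_three).1 h1 with h | h <;> omega
  obtain ⟨i, hi⟩ := hx
  obtain ⟨j, hj⟩ := hy
  have hi0 : i ≠ 0 := by rintro rfl; omega
  have hj0 : j ≠ 0 := by rintro rfl; omega
  by_cases hi1 : i = 1
  · rw [hi1, mul_one] at hi
    apply key y (by omega) ⟨j, hj⟩
  by_cases hj1 : j = 1
  · rw [hj1, mul_one] at hj
    apply key x (by omega) ⟨i, hi⟩
  exfalso
  have h1 : x * 2 ≤ x * i := Nat.mul_le_mul_left _ (by omega)
  have h2 : y * 2 ≤ y * j := Nat.mul_le_mul_left _ (by omega)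
  omega

variable {p : ℕ} [hp : Fact p.Prime]

theorem odd_final (hα : Fintype.card α = p) (G : Subgroup (Equiv.Perm α)) [IsPretransitive G α]
    (P : Sylow p G) (E : Subgroup G) {u : G} {a0 : α} {χ : IrrCharacter G} (D : Data p G (P : Subgroup G) E u a0 χ)
    (hodd : Odd (Nat.card E)) (e : G ≃* PSL(2, ZMod p)) : p = 7 ∨ p = 11 := by
  classical
  haveI := D.simple
  have hp5 := D.five
  have hns : ¬ Group.IsSolvable G := by
    intro h
    obtain ⟨a, b, hab⟩ := D.nonab
    exact hab (IsSimpleGroup.comm_iff_isSolvable.2 h a b)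
  have hoddp : Odd p := hp.out.odd_of_ne_two (by omega)
  have hcard : 2 * Nat.card G = p * ((p - 1) * (p + 1)) := by
    rw [Nat.card_congr e.toEquiv]
    have h := H14.SubField.card_PSL2_odd (F := ZMod p) (by rw [ZMod.card]; exact hoddp)
    rwa [ZMod.card] at h
  -- Sylow count
  obtain ⟨k, hk⟩ : ∃ k, Nat.card (Sylow p G) = 1 + p * k := by
    have h1 := card_sylow_modEq_one p G
    have h2 : 1 ≤ Nat.card (Sylow p G) := Nat.card_pos
    obtain ⟨k, hk⟩ := (Nat.modEq_iff_dvd' h2).1 h1.symm
    exact ⟨k, by omega⟩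
  have hN : Nat.card (normalizer ((P : Subgroup G) : Set G)) = p * Nat.card E := D.cardN
  have hidx : Nat.card (Sylow p G) = (normalizer ((P : Subgroup G) : Set G)).index := P.card_eq_index_normalizer
  have h1 : p * Nat.card E * (1 + p * k) = Nat.card G := by
    rw [← hN, ← hk, hidx, Subgroup.card_mul_index]
  obtain ⟨q, rfl⟩ : ∃ q, p = q + 1 := ⟨p - 1, by omega⟩
  have h2 : 2 * Nat.card E * (1 + (q + 1) * k) = q * (q + 2) := by
    have h3 : (q + 1) * (2 * Nat.card E * (1 + (q + 1) * k)) = (q + 1) * (q * (q + 2)) := by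
      have h4 : q + 1 - 1 = q := by omega
      rw [h4] at hcard
      calc (q + 1) * (2 * Nat.card E * (1 + (q + 1) * k)) = 2 * ((q + 1) * Nat.card E * (1 + (q + 1) * k)) := by ring
        _ = 2 * Nat.card G := by rw [h1]
        _ = (q + 1) * (q * (q + 1 + 1)) := hcard
        _ = _ := by ring
    exact Nat.eq_of_mul_eq_mul_left (by omega) h3
  have he : Nat.card E ≤ q := by
    have := Nat.le_of_dvd (by omega) D.dvd
    omega
  have h3 : (q + 1) ∣ 2 * Nat.card E + 1 := by
    have h5 : (q + 1) ∣ 2 * Nat.card E * (1 + (q + 1) * k) + 1 := by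
      rw [h2]
      exact ⟨q + 1, by ring⟩
    have h6 : 2 * Nat.card E * (1 + (q + 1) * k) + 1 = (2 * Nat.card E + 1) + (q + 1) * (2 * Nat.card E * k) := by ring
    rw [h6] at h5
    exact (Nat.dvd_add_left (dvd_mul_right _ _)).1 h5
  have h4 : 2 * Nat.card E + 1 = q + 1 := by
    obtain ⟨j, hj⟩ := h3
    have hj1 : j = 1 := by
      have hj2 : j < 2 := by
        by_contra hcon
        have : (q + 1) * 2 ≤ (q + 1) * j := Nat.mul_le_mul_left _ (by omega)
        omega
      have hj0 : j ≠ 0 := by rintro rfl; omega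
      omega
    rw [hj1, mul_one] at hj
    exact hj
  have hN2 : 2 * Nat.card (normalizer ((P : Subgroup G) : Set G)) = (q + 1) * (q + 1 - 1) := by
    rw [hN, show q + 1 - 1 = 2 * Nat.card E by omega]; ring
  have hmul2 : IsMultiplyPretransitive G α 2 := H12.burnside_prime_degree hα G hns
  rcases H74.PD.half_dichotomy hα G hns P hN2 with h | h
  · exfalso
    have h5 := H12.dvd_card_of_multiplyPretransitive_three h (by omega)
    rw [hα] at h5
    have h6 := Nat.le_of_dvd Nat.card_pos h5
    have e1 : q + 1 - 1 = q := by omega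
    rw [e1] at h6 hcard
    have h7 : (q + 1) * q * (2 * (q + 1 - 2)) ≤ (q + 1) * q * (q + 2) := by
      calc (q + 1) * q * (2 * (q + 1 - 2)) = 2 * ((q + 1) * q * (q + 1 - 2)) := by ring
        _ ≤ 2 * Nat.card G := Nat.mul_le_mul_left _ h6
        _ = (q + 1) * (q * (q + 1 + 1)) := hcard
        _ = _ := by ring
    have h8 := Nat.le_of_mul_le_mul_left h7 (Nat.mul_pos (by omega) (by omega))
    obtain ⟨i, hi⟩ := hodd
    omega
  · obtain ⟨a, b, hab⟩ : ∃ a b : α, a ≠ b := by
      have : 1 < Fintype.card α := by omega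
      exact Fintype.one_lt_card_iff.1 this
    have h5 := card_pair_stab hmul2 hab
    obtain ⟨x, y, hxy, hx, hy⟩ := orbit_numbers hab (h a b hab)
    set m := Nat.card ↥(stabilizer G a ⊓ stabilizer G b) with hm
    rw [hα] at h5 hxy
    have e1 : q + 1 - 1 = q := by omega
    rw [e1] at h5 hcard
    have h6 : 2 * m = q + 2 := by
      have h7 : (q + 1) * q * (2 * m) = (q + 1) * q * (q + 2) := by
        calc (q + 1) * q * (2 * m) = 2 * (m * ((q + 1) * q)) := by ring
          _ = 2 * Nat.card G := by rw [h5]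
          _ = (q + 1) * (q * (q + 1 + 1)) := hcard
          _ = _ := by ring
      exact Nat.eq_of_mul_eq_mul_left (Nat.mul_pos (by omega) (by omega)) h7
    have hodd' := hodd
    obtain ⟨i, hi⟩ := hodd'
    have h8 := nums (m := m) (x := x) (y := y) (by omega) (by omega) hx hy
    omega

end Cfsg.Agent.H8S
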