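import Mathlib
import Cfsg.Agent.H8S.Simple
import Cfsg.Agent.BT.PQR

/-!
# Degree five
-/

set_option autoImplicit false
set_option linter.style.haveILetI false
set_option linter.unusedVariables false
set_option linter.unusedSectionVars false

open Subgroup MulAction
open scoped MatrixGroups Matrix

namespace Cfsg.Agent.H8S

open Cfsg

variable {α : Type*} [Fintype α] [DecidableEq α]

theorem five_case [hp : Fact (Nat.Prime 5)] (hα : Fintype.card α = 5) (G : Subgroup (Equiv.Perm α)) [IsPretransitive G α]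
    (P : Sylow 5 G) (E : Subgroup G) {u : G} {a0 : α} {χ : IrrCharacter G}
    (D : Data 5 G (P : Subgroup G) E u a0 χ)
    (hE : Nat.card E = 2) : Nonempty (G ≃* Matrix.ProjectiveSpecialLinearGroup (Fin 2) (ZMod 5)) := by
  haveI := D.simple
  apply BT.order_sixty
  obtain ⟨k, hk⟩ : ∃ k, Nat.card (Sylow 5 G) = 1 + 5 * k := by
    have h1 := card_sylow_modEq_one 5 G
    have h2 : 1 ≤ Nat.card (Sylow 5 G) := Nat.card_pos
    obtain ⟨k, hk⟩ := (Nat.modEq_iff_dvd' h2).1 h1.symm
    exact ⟨k, by omega⟩
  have hN : Nat.card (normalizer ((P : Subgroup G) : Set G)) = 5 * Nat.card E := D.cardN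
  have hidx : Nat.card (Sylow 5 G) = (normalizer ((P : Subgroup G) : Set G)).index := P.card_eq_index_normalizer
  have h1 : 5 * Nat.card E * (1 + 5 * k) = Nat.card G := by
    rw [← hN, ← hk, hidx, Subgroup.card_mul_index]
  rw [hE] at h1
  have h2 : Nat.card G ∣ 120 := by
    have h3 := Subgroup.card_subgroup_dvd_card G
    rw [Nat.card_eq_fintype_card (α := Equiv.Perm α), Fintype.card_perm, hα] at h3
    exact h3
  rw [← h1] at h2 ⊢
  have h3 : 1 + 5 * k ∣ 12 := by
    obtain ⟨c, hc⟩ := h2
    exact ⟨c, by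
      have : 10 * 12 = 10 * ((1 + 5 * k) * c) := by
        rw [← mul_assoc]
        exact hc
      exact Nat.eq_of_mul_eq_mul_left (by norm_num) this⟩
  have h4 := Nat.le_of_dvd (by norm_num) h3
  have hk2 : k ≤ 2 := by omega
  interval_cases k
  · exfalso
    have h5 : Nat.card (Sylow 5 G) = 1 := by rw [hk]
    rw [hidx, Subgroup.index_eq_one] at h5
    have h6 : (P : Subgroup G).Normal := Subgroup.normalizer_eq_top_iff.1 h5
    have hPc : Nat.card (P : Subgroup G) = 5 := (H12.sylow_eq_zpowers hα G P).1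
    rcases h6.eq_bot_or_eq_top with h | h
    · rw [h, Subgroup.card_bot] at hPc; omega
    · rw [h, Subgroup.card_top] at hPc
      omega
  · rfl
  · exfalso
    revert h3; decide

end Cfsg.Agent.H8S
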